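import Mathlib
import Cfsg.Prelude.Def_Solvable
import Cfsg.Prelude.Def_Local
import Cfsg.Prelude.Def_CaseTheorems

/-!
# S3786 (Hall–Higman: `p`-length and the exponent of a Sylow `p`-subgroup, `p` odd)
## Package statements, part 1 (helper70)

Each `def X : Prop` below is a package: a self-contained statement to be proved by a helper in
its own file as `theorem x : X.{..}` (possibly from other packages as hypotheses).
The paper proof is in the team notes of topic `S3786`.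
-/

set_option autoImplicit false

namespace Cfsg.Agent.Lib.Helper70.HH86

open Module

universe u v w

/-- Every `p`-element of `G` has order dividing `p ^ e`. -/
def ExpLE (p e : ℕ) (G : Type u) [Group G] : Prop :=
  ∀ x : G, (∃ k : ℕ, x ^ p ^ k = 1) → x ^ p ^ e = 1

/-- The hypothesis of part (a). -/
def HypA (p : ℕ) (G : Type u) [Group G] : Prop :=
  (¬ ∃ k : ℕ, p = 2 ^ k + 1) ∨ ∀ S : Sylow 2 G, IsMulCommutative ↥(S : Subgroup G)

/-- (G1) A `p`-element of a quotient lifts to a `p`-element. -/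
def LemPLift : Prop :=
  ∀ {p : ℕ} [Fact p.Prime] {G : Type u} [Group G] [Finite G] (N : Subgroup G) [N.Normal]
    (y : G ⧸ N), (∃ k : ℕ, y ^ p ^ k = 1) →
    ∃ x : G, (∃ k : ℕ, x ^ p ^ k = 1) ∧ (QuotientGroup.mk x : G ⧸ N) = y

/-- (G2) Abelian Sylow `2`-subgroups pass to quotients. -/
def LemSylQuot : Prop :=
  ∀ {G : Type u} [Group G] [Finite G] (N : Subgroup G) [N.Normal],
    (∀ S : Sylow 2 G, IsMulCommutative ↥(S : Subgroup G)) →
    ∀ S : Sylow 2 (G ⧸ N), IsMulCommutative ↥(S : Subgroup (G ⧸ N))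

/-- (M1) Weak Theorem B: an element of order `p ^ n` of a `p`-soluble group `H` with
`O_p(H) = 1`, faithful in characteristic `p`, has minimal polynomial of degree at least
`p ^ (n - 1) * (p - 1)`. -/
def WTB : Prop :=
  ∀ {p : ℕ} [Fact p.Prime] {F : Type w} [Field F] [CharP F p] {H : Type u} [Group H] [Finite H]
    {V : Type v} [AddCommGroup V] [Module F V] [FiniteDimensional F V]
    (ρ : Representation F H V) (x : H) (n r : ℕ),
    Cfsg.IsPSolvable p H → Cfsg.pCore p H = ⊥ → Function.Injective ρ →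
    1 ≤ n → x ^ p ^ n = 1 → x ^ p ^ (n - 1) ≠ 1 → (ρ x - 1) ^ r = 0 →
    p ^ (n - 1) * (p - 1) ≤ r

/-- (M2) Theorem B, exceptional case: if the minimal polynomial of an element of order `p ^ n`
has degree less than `p ^ n`, then `p` is a Fermat prime and `H` has a non-abelian
`2`-subgroup. -/
def ModA : Prop :=
  ∀ {p : ℕ} [Fact p.Prime] {F : Type w} [Field F] [CharP F p] {H : Type u} [Group H] [Finite H]
    {V : Type v} [AddCommGroup V] [Module F V] [FiniteDimensional F V]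
    (ρ : Representation F H V) (x : H) (n : ℕ),
    p ≠ 2 → Cfsg.IsPSolvable p H → Cfsg.pCore p H = ⊥ → Function.Injective ρ →
    1 ≤ n → x ^ p ^ n = 1 → x ^ p ^ (n - 1) ≠ 1 → (ρ x - 1) ^ (p ^ n - 1) = 0 →
    (∃ k : ℕ, p = 2 ^ k + 1) ∧
      ∃ Q : Subgroup H, IsPGroup 2 Q ∧ ∃ a ∈ Q, ∃ b ∈ Q, a * b ≠ b * a

/-- (L1) Linearization: `G / O_p(G)` acts faithfully on `V = O_p(G) / Φ(O_p(G))` when
`O_{p'}(G) = 1`; if the `p`-elements of `G` have order dividing `p ^ n` then every `p`-element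
of `G / O_p(G)` has vanishing norm `(ρ g - 1) ^ (p ^ n - 1) = ∑_{i < p ^ n} (ρ g) ^ i` on `V`. -/
def LinNZ : Prop :=
  ∀ {p : ℕ} [Fact p.Prime] {G : Type u} [Group G] [Finite G],
    Cfsg.IsPSolvable p G → Cfsg.pPrimeCore p G = ⊥ →
    ∃ (V : Type u) (_ : AddCommGroup V) (_ : Module (ZMod p) V) (_ : Finite V)
      (ρ : Representation (ZMod p) (G ⧸ Cfsg.pCore p G) V), Function.Injective ρ ∧
      ∀ n : ℕ, ExpLE p n G → ∀ g : G ⧸ Cfsg.pCore p G, (∃ k : ℕ, g ^ p ^ k = 1) →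
        (ρ g - 1) ^ (p ^ n - 1) = 0

/-- (L2) If `O_{p'}(G) = 1`, `h ^ p ^ n = 1` and `h ^ p ^ (n - 1) ∉ O_p(G)`, then
`h ^ p ^ (n - 1)` does not commute with all `(u * h) ^ p ^ (n - 1)`, `u ∈ O_p(G)`. -/
def UpperContra : Prop :=
  ∀ {p : ℕ} [Fact p.Prime] {G : Type u} [Group G] [Finite G], p ≠ 2 → Cfsg.IsPSolvable p G →
    Cfsg.pPrimeCore p G = ⊥ → ∀ (h : G) (n : ℕ), 1 ≤ n → h ^ p ^ n = 1 →
    h ^ p ^ (n - 1) ∉ Cfsg.pCore p G →
    (∀ u ∈ Cfsg.pCore p G,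
      h ^ p ^ (n - 1) * (u * h) ^ p ^ (n - 1) = (u * h) ^ p ^ (n - 1) * h ^ p ^ (n - 1)) →
    False

/-- (E) Theorem EC over an algebraically closed field: if every element `t` of the `p`-subgroup
`T` has vanishing norm `(ρ t - 1) ^ (p ^ n - 1) = 0`, then the `p ^ (n - 1)`-th powers of the
elements of `T` commute pairwise. -/
def ECalg : Prop :=
  ∀ {p : ℕ} [Fact p.Prime] {F : Type w} [Field F] [IsAlgClosed F] [CharP F p] {H : Type u}
    [Group H] [Finite H] {V : Type v} [AddCommGroup V] [Module F V] [FiniteDimensional F V]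
    (ρ : Representation F H V) (T : Subgroup H) (n : ℕ),
    p ≠ 2 → Cfsg.IsPSolvable p H → Cfsg.pCore p H = ⊥ → Function.Injective ρ → 1 ≤ n →
    IsPGroup p T → (∀ t ∈ T, (ρ t - 1) ^ (p ^ n - 1) = 0) →
    ∀ t ∈ T, ∀ t' ∈ T,
      t ^ p ^ (n - 1) * t' ^ p ^ (n - 1) = t' ^ p ^ (n - 1) * t ^ p ^ (n - 1)

/-- (E') Theorem EC over an arbitrary field of characteristic `p` (base change of (E)). -/
def EC : Prop :=
  ∀ {p : ℕ} [Fact p.Prime] {F : Type w} [Field F] [CharP F p] {H : Type u}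
    [Group H] [Finite H] {V : Type v} [AddCommGroup V] [Module F V] [FiniteDimensional F V]
    (ρ : Representation F H V) (T : Subgroup H) (n : ℕ),
    p ≠ 2 → Cfsg.IsPSolvable p H → Cfsg.pCore p H = ⊥ → Function.Injective ρ → 1 ≤ n →
    IsPGroup p T → (∀ t ∈ T, (ρ t - 1) ^ (p ^ n - 1) = 0) →
    ∀ t ∈ T, ∀ t' ∈ T,
      t ^ p ^ (n - 1) * t' ^ p ^ (n - 1) = t' ^ p ^ (n - 1) * t ^ p ^ (n - 1)

/-- (M3) If every `p`-element of `H` has vanishing norm `(ρ g - 1) ^ (p ^ n - 1) = 0`, then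
`h ^ p ^ (n - 1) ∈ O_{p',p}(H)` for every `p`-element `h`. -/
def ModB : Prop :=
  ∀ {p : ℕ} [Fact p.Prime] {F : Type w} [Field F] [CharP F p] {H : Type u} [Group H] [Finite H]
    {V : Type v} [AddCommGroup V] [Module F V] [FiniteDimensional F V]
    (ρ : Representation F H V) (n : ℕ),
    p ≠ 2 → Cfsg.IsPSolvable p H → Cfsg.pCore p H = ⊥ → Function.Injective ρ → 1 ≤ n →
    (∀ g : H, (∃ k : ℕ, g ^ p ^ k = 1) → (ρ g - 1) ^ (p ^ n - 1) = 0) →
    ∀ h : H, (∃ k : ℕ, h ^ p ^ k = 1) →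
      (QuotientGroup.mk (h ^ p ^ (n - 1)) : H ⧸ Cfsg.pPrimeCore p H) ∈
        Cfsg.pCore p (H ⧸ Cfsg.pPrimeCore p H)

/-- (K1) The key step of part (a). -/
def KeyA : Prop :=
  ∀ {p : ℕ} [Fact p.Prime] {G : Type u} [Group G] [Finite G], p ≠ 2 → Cfsg.IsPSolvable p G →
    Cfsg.pPrimeCore p G = ⊥ → HypA p G → ∀ e : ℕ, ExpLE p (e + 1) G →
    ExpLE p e (G ⧸ Cfsg.pCore p G)

/-- (K2) The key step of part (b). -/
def KeyB : Prop :=
  ∀ {p : ℕ} [Fact p.Prime] {G : Type u} [Group G] [Finite G], p ≠ 2 → Cfsg.IsPSolvable p G →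
    Cfsg.pPrimeCore p G = ⊥ → ∀ e : ℕ, ExpLE p (e + 1) G →
    ExpLE p e (((G ⧸ Cfsg.pCore p G) ⧸ Cfsg.pPrimeCore p (G ⧸ Cfsg.pCore p G)) ⧸
      Cfsg.pCore p ((G ⧸ Cfsg.pCore p G) ⧸ Cfsg.pPrimeCore p (G ⧸ Cfsg.pCore p G)))

/-- (I1) Part (a). -/
def MainA : Prop :=
  ∀ {p : ℕ} [Fact p.Prime] {G : Type u} [Group G] [Finite G], p ≠ 2 → Cfsg.IsPSolvable p G →
    HypA p G → ∀ e : ℕ, ExpLE p e G → Cfsg.PLengthLE p e G

/-- (I2) Part (b). -/
def MainB : Prop :=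
  ∀ {p : ℕ} [Fact p.Prime] {G : Type u} [Group G] [Finite G], p ≠ 2 → Cfsg.IsPSolvable p G →
    ∀ e : ℕ, ExpLE p e G → Cfsg.PLengthLE p (2 * e) G

end Cfsg.Agent.Lib.Helper70.HH86
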