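import Mathlib
import Cfsg.Prelude.Def_Solvable
import Cfsg.Prelude.Def_Local

/-!
# S3789 (Hall–Higman: `p`-length ≤ derived length of a Sylow `p`-subgroup, `p` odd)
## Package statements (helper70)

Each `def LemX : Prop` below is a package: a self-contained statement to be proved by a helper in
its own file as `theorem lemX : LemX.{..}` (possibly from other packages as hypotheses).
The paper proof is in the team note of topic `S3789`.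
-/

set_option autoImplicit false

namespace Cfsg.Agent.Lib.Helper70.HH89

open Module

universe u v w

/-- The Frattini subgroup of a subgroup, as a subgroup of the ambient group. -/
def frat {G : Type u} [Group G] (Q : Subgroup G) : Subgroup G :=
  (frattini ↥Q).map Q.subtype

/-- (P1) The critical `q`-subgroup: `H` is `p`-soluble with `O_p(H) = 1`, `B` a `p`-subgroup with
`A = [B, B] ≠ 1`.  Then there are a prime `q ≠ p`, a `B`-invariant `q`-subgroup `Q` and `z ∈ A`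
such that every proper `B`-invariant subgroup of `Q` is centralized by `A`, `z` acts fixed point
freely on `Q / Φ(Q)`, `Φ(Q) ≤ Z(Q)`, `Q ≠ Φ(Q)`, `A` centralizes `Φ(Q)`, and `Q = [Q, z]`. -/
def LemCrit : Prop :=
  ∀ {p : ℕ} [Fact p.Prime] {H : Type u} [Group H] [Finite H],
    Cfsg.IsPSolvable p H → Cfsg.pCore p H = ⊥ → ∀ (B : Subgroup H), IsPGroup p B → ⁅B, B⁆ ≠ ⊥ →
    ∃ (q : ℕ) (Q : Subgroup H) (z : H), q.Prime ∧ q ≠ p ∧ IsPGroup q Q ∧ z ∈ ⁅B, B⁆ ∧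
      (∀ b ∈ B, ∀ g ∈ Q, b * g * b⁻¹ ∈ Q) ∧
      (∀ Q₁ : Subgroup H, Q₁ ≤ Q → Q₁ ≠ Q → (∀ b ∈ B, ∀ g ∈ Q₁, b * g * b⁻¹ ∈ Q₁) →
        ∀ a ∈ ⁅B, B⁆, ∀ g ∈ Q₁, a * g = g * a) ∧
      (∀ g ∈ Q, z * g * z⁻¹ * g⁻¹ ∈ frat Q → g ∈ frat Q) ∧
      (∃ g ∈ Q, g ∉ frat Q) ∧
      (∀ c ∈ frat Q, ∀ g ∈ Q, c * g = g * c) ∧
      (∀ a ∈ ⁅B, B⁆, ∀ c ∈ frat Q, a * c = c * a) ∧
      Q ≤ Subgroup.closure {x : H | ∃ g ∈ Q, x = z * g * z⁻¹ * g⁻¹}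

/-- (P2) The module `W`: a nonzero `Q`- and `B`-invariant subspace on which `Φ(Q)` acts by
scalars and such that `Q'` acts non-trivially on every nonzero `Q`-invariant subspace of `W`. -/
def LemW : Prop :=
  ∀ {p q : ℕ} [Fact p.Prime] [Fact q.Prime] {F : Type w} [Field F] [IsAlgClosed F] [CharP F p]
    {H : Type u} [Group H] [Finite H] {V : Type v} [AddCommGroup V] [Module F V]
    [FiniteDimensional F V] (ρ : Representation F H V) (B Q : Subgroup H) (z : H),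
    p ≠ 2 → q ≠ p → IsPGroup p B → IsPGroup q Q →
    (∀ b ∈ B, ∀ g ∈ Q, b * g * b⁻¹ ∈ Q) →
    (∀ c ∈ frat Q, z * c = c * z) →
    (∀ c ∈ frat Q, ∀ g ∈ Q, c * g = g * c) →
    Q ≤ Subgroup.closure {x : H | ∃ g ∈ Q, x = z * g * z⁻¹ * g⁻¹} →
    (∀ b ∈ B, (ρ z - 1) * (ρ b - 1) * (ρ b - 1) = 0) →
    (∃ a ∈ Q, ∃ b ∈ Q, ρ (a * b) ≠ ρ (b * a)) →
    ∃ W : Submodule F V, W ≠ ⊥ ∧ (∀ g ∈ Q, W.map (ρ g) ≤ W) ∧ (∀ b ∈ B, W.map (ρ b) ≤ W) ∧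
      (∀ c ∈ frat Q, ∃ μ : F, ∀ w ∈ W, ρ c w = μ • w) ∧
      (∀ U : Submodule F V, U ≠ ⊥ → U ≤ W → (∀ g ∈ Q, U.map (ρ g) ≤ U) →
        ∃ a ∈ Q, ∃ b ∈ Q, ∃ u ∈ U, ρ (a * b) u ≠ ρ (b * a) u)

/-- (P3) Elements of `Q` that are central modulo the kernel of `Q` on `W` lie in `Φ(Q)`. -/
def LemD : Prop :=
  ∀ {F : Type w} [Field F] {H : Type u} [Group H] {V : Type v} [AddCommGroup V] [Module F V]
    (ρ : Representation F H V) (B Q : Subgroup H) (z : H) (W : Submodule F V),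
    (∀ b ∈ B, ∀ g ∈ Q, b * g * b⁻¹ ∈ Q) →
    (∀ Q₁ : Subgroup H, Q₁ ≤ Q → Q₁ ≠ Q → (∀ b ∈ B, ∀ g ∈ Q₁, b * g * b⁻¹ ∈ Q₁) →
        ∀ g ∈ Q₁, z * g = g * z) →
    (∀ g ∈ Q, z * g * z⁻¹ * g⁻¹ ∈ frat Q → g ∈ frat Q) →
    (∀ g ∈ Q, W.map (ρ g) ≤ W) → (∀ b ∈ B, W.map (ρ b) ≤ W) →
    (∃ a ∈ Q, ∃ b ∈ Q, ∃ u ∈ W, ρ (a * b) u ≠ ρ (b * a) u) →
    ∀ g ∈ Q, (∀ h ∈ Q, ∀ w ∈ W, ρ (g * h) w = ρ (h * g) w) → g ∈ frat Q

/-- (P4) The kernel of `Q` on a nonzero `Q`-invariant subspace `W₀ ≤ W` is the kernel on `W`. -/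
def LemKer : Prop :=
  ∀ {q : ℕ} [Fact q.Prime] {F : Type w} [Field F] {H : Type u} [Group H] [Finite H] {V : Type v}
    [AddCommGroup V] [Module F V] (ρ : Representation F H V) (Q : Subgroup H)
    (W W₀ : Submodule F V),
    IsPGroup q Q → W₀ ≤ W → W₀ ≠ ⊥ → (∀ g ∈ Q, W.map (ρ g) ≤ W) → (∀ g ∈ Q, W₀.map (ρ g) ≤ W₀) →
    (∀ c ∈ frat Q, ∃ μ : F, ∀ w ∈ W, ρ c w = μ • w) →
    (∀ g ∈ Q, (∀ h ∈ Q, ∀ w ∈ W, ρ (g * h) w = ρ (h * g) w) → g ∈ frat Q) →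
    ∀ k ∈ Q, (∀ w ∈ W₀, ρ k w = w) → ∀ w ∈ W, ρ k w = w

/-- (P5) Central type: linear independence of coset representatives modulo the scalars. -/
def LemIndep : Prop :=
  ∀ {F : Type w} [Field F] {G : Type u} [Group G] [Finite G] {V : Type v} [AddCommGroup V]
    [Module F V] [FiniteDimensional F V] [Nontrivial V] (ρ : Representation F G V)
    (Q C : Subgroup G),
    C ≤ Q →
    (∀ g ∈ Q, ρ g = 1 → g = 1) →
    (∀ c ∈ C, ∃ μ : F, ρ c = μ • (1 : Module.End F V)) →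
    (∀ a ∈ Q, ∀ b ∈ Q, a * b * a⁻¹ * b⁻¹ ∈ C) →
    (∀ a ∈ Q, (∀ b ∈ Q, a * b = b * a) → a ∈ C) →
    Nat.card Q ≤ finrank F V ^ 2 * Nat.card C

/-- (P6) The dimension bound in the critical configuration with a quadratic element. -/
def LemDimAbs : Prop :=
  ∀ {p q : ℕ} [Fact p.Prime] [Fact q.Prime] {F : Type w} [Field F] [IsAlgClosed F] [CharP F p]
    {G : Type u} [Group G] [Finite G] {V : Type v} [AddCommGroup V] [Module F V]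
    [FiniteDimensional F V] [Nontrivial V] (ρ : Representation F G V) (Q C : Subgroup G)
    [Q.Normal] (x : G),
    p ≠ 2 → q ≠ p → IsPGroup q Q → Function.Injective ρ →
    Q ⊔ Subgroup.zpowers x = ⊤ → x ^ p = 1 →
    (∀ U : Submodule F V, (∀ g : G, U.map (ρ g) ≤ U) → U = ⊥ ∨ U = ⊤) →
    (ρ x - 1) * (ρ x - 1) = 0 →
    C ≤ Q →
    (∀ c ∈ C, ∃ μ : F, ρ c = μ • (1 : Module.End F V)) →
    (∀ a ∈ Q, ∀ b ∈ Q, a * b * a⁻¹ * b⁻¹ ∈ C) →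
    (∀ a ∈ Q, (∀ b ∈ Q, a * b = b * a) → a ∈ C) →
    (∀ a ∈ Q, x * a = a * x → a ∈ C) →
    (∃ a ∈ Q, x * a ≠ a * x) →
    finrank F V ≤ 2

/-- (P7) The order bound `|Q : Φ(Q)| ≤ 4` (reduction to (P4), (P5), (P6)). -/
def LemDim : Prop :=
  ∀ {p q : ℕ} [Fact p.Prime] [Fact q.Prime] {F : Type w} [Field F] [IsAlgClosed F] [CharP F p]
    {H : Type u} [Group H] [Finite H] {V : Type v} [AddCommGroup V] [Module F V]
    [FiniteDimensional F V] (ρ : Representation F H V) (Q : Subgroup H) (z : H)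
    (W : Submodule F V),
    p ≠ 2 → q ≠ p → IsPGroup q Q →
    (∀ g ∈ Q, z * g * z⁻¹ ∈ Q) → z ^ p = 1 →
    (∀ c ∈ frat Q, z * c = c * z) →
    (∀ c ∈ frat Q, ∀ g ∈ Q, c * g = g * c) →
    (∀ g ∈ Q, z * g * z⁻¹ * g⁻¹ ∈ frat Q → g ∈ frat Q) →
    Q ≤ Subgroup.closure {x : H | ∃ g ∈ Q, x = z * g * z⁻¹ * g⁻¹} →
    (ρ z - 1) * (ρ z - 1) = 0 →
    W ≠ ⊥ → (∀ g ∈ Q, W.map (ρ g) ≤ W) → W.map (ρ z) ≤ W →
    (∀ c ∈ frat Q, ∃ μ : F, ∀ w ∈ W, ρ c w = μ • w) →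
    (∀ U : Submodule F V, U ≠ ⊥ → U ≤ W → (∀ g ∈ Q, U.map (ρ g) ≤ U) →
        ∃ a ∈ Q, ∃ b ∈ Q, ∃ u ∈ U, ρ (a * b) u ≠ ρ (b * a) u) →
    (∀ g ∈ Q, (∀ h ∈ Q, ∀ w ∈ W, ρ (g * h) w = ρ (h * g) w) → g ∈ frat Q) →
    Nat.card Q ≤ 4 * Nat.card (frat Q)

/-- (P8) A `p`-group (`p` odd) acting on `Q / Φ(Q)` of order at most `4` induces an abelian
group of automorphisms: its commutators act trivially. -/
def LemFin : Prop :=
  ∀ {p : ℕ} [Fact p.Prime] {H : Type u} [Group H] [Finite H] (B Q : Subgroup H),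
    p ≠ 2 → IsPGroup p B → (∀ b ∈ B, ∀ g ∈ Q, b * g * b⁻¹ ∈ Q) →
    Nat.card Q ≤ 4 * Nat.card (frat Q) →
    ∀ a ∈ ⁅B, B⁆, ∀ g ∈ Q, a * g * a⁻¹ * g⁻¹ ∈ frat Q

/-- (T) Theorem M over an algebraically closed field. -/
def ThmM : Prop :=
  ∀ {p : ℕ} [Fact p.Prime] {F : Type w} [Field F] [IsAlgClosed F] [CharP F p]
    {H : Type u} [Group H] [Finite H] {V : Type v} [AddCommGroup V] [Module F V]
    [FiniteDimensional F V] (ρ : Representation F H V) (B : Subgroup H),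
    p ≠ 2 → Cfsg.IsPSolvable p H → Cfsg.pCore p H = ⊥ → Function.Injective ρ → IsPGroup p B →
    (∀ a ∈ ⁅B, B⁆, ∀ a' ∈ ⁅B, B⁆, (ρ a - 1) * (ρ a' - 1) = 0) →
    (∀ a ∈ ⁅B, B⁆, ∀ b₁ ∈ B, ∀ b₂ ∈ B, (ρ a - 1) * (ρ b₁ - 1) * (ρ b₂ - 1) = 0) →
    ⁅B, B⁆ = ⊥

/-- (P9) Theorem M over an arbitrary field of characteristic `p` (base change of (T)). -/
def LemMod : Prop :=
  ∀ {p : ℕ} [Fact p.Prime] {F : Type w} [Field F] [CharP F p]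
    {H : Type u} [Group H] [Finite H] {V : Type v} [AddCommGroup V] [Module F V]
    [FiniteDimensional F V] (ρ : Representation F H V) (B : Subgroup H),
    p ≠ 2 → Cfsg.IsPSolvable p H → Cfsg.pCore p H = ⊥ → Function.Injective ρ → IsPGroup p B →
    (∀ a ∈ ⁅B, B⁆, ∀ a' ∈ ⁅B, B⁆, (ρ a - 1) * (ρ a' - 1) = 0) →
    (∀ a ∈ ⁅B, B⁆, ∀ b₁ ∈ B, ∀ b₂ ∈ B, (ρ a - 1) * (ρ b₁ - 1) * (ρ b₂ - 1) = 0) →
    ⁅B, B⁆ = ⊥

/-- (P10) The key lemma: if `O_{p'}(G) = 1` and a Sylow `p`-subgroup `P` has derived length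
at most `d + 1`, then `P^{(d)} ≤ O_p(G)`. -/
def LemKey : Prop :=
  ∀ {p : ℕ} [Fact p.Prime] {G : Type u} [Group G] [Finite G], p ≠ 2 → Cfsg.IsPSolvable p G →
    Cfsg.pPrimeCore p G = ⊥ → ∀ (P : Sylow p G) (d : ℕ),
    derivedSeries ↥(P : Subgroup G) (d + 1) = ⊥ →
    (derivedSeries ↥(P : Subgroup G) d).map (P : Subgroup G).subtype ≤ Cfsg.pCore p G

/-- (P11) The main theorem (induction on `d` from (P10)). -/
def Main : Prop :=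
  ∀ {p : ℕ} [Fact p.Prime] {G : Type u} [Group G] [Finite G], p ≠ 2 → Cfsg.IsPSolvable p G →
    ∀ (d : ℕ) (P : Sylow p G), derivedSeries ↥(P : Subgroup G) d = ⊥ → Cfsg.PLengthLE p d G

end Cfsg.Agent.Lib.Helper70.HH89
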