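import Mathlib
import Cfsg.Agent.Lib.Helper70.HH.S3789Defs
import Cfsg.Agent.Lib.Helper70.HH.S3786Defs

/-!
# S3786, part 2: package statements for Theorem EC (helper70)

Notation: `frat Q` is `HH89.frat Q` (the Frattini subgroup of `Q` inside the ambient group).
The paper proof is in the team notes of topic `S3786` (part 2).
-/

set_option autoImplicit false

namespace Cfsg.Agent.Lib.Helper70.HH86

open Module Cfsg.Agent.Lib.Helper70.HH89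

universe u v w

/-! ## Definitions -/

/-- `a ∈ Q` is central in `Q` modulo the kernel of `Q` on `U`. -/
def CenOn {F : Type w} [Field F] {H : Type u} [Group H] {V : Type v} [AddCommGroup V]
    [Module F V] (ρ : Representation F H V) (Q : Subgroup H) (U : Submodule F V) (a : H) : Prop :=
  a ∈ Q ∧ ∀ b ∈ Q, ∀ w ∈ U, ρ (a * b) w = ρ (b * a) w

/-- A *piece* of `W`: a nonzero `Q`-invariant subspace `U ≤ W` on which the elements of `Q`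
that are central modulo the kernel act by scalars, and which contains every vector of `W` on
which these elements act by the same scalars. -/
def IsPiece {F : Type w} [Field F] {H : Type u} [Group H] {V : Type v} [AddCommGroup V]
    [Module F V] (ρ : Representation F H V) (Q : Subgroup H) (W U : Submodule F V) : Prop :=
  U ≠ ⊥ ∧ U ≤ W ∧ (∀ a ∈ Q, U.map (ρ a) ≤ U) ∧
    (∀ a, CenOn ρ Q U a → ∃ s : F, ∀ w ∈ U, ρ a w = s • w) ∧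
    (∀ w ∈ W, (∀ a, CenOn ρ Q U a → ∀ s : F, (∀ u ∈ U, ρ a u = s • u) → ρ a w = s • w) → w ∈ U)

/-- The element `(y - u)(y - 1) a` of an abelian section, written multiplicatively:
`y [y,a] y⁻¹ * (u [y,a] u⁻¹)⁻¹` with `[y,a] = y a y⁻¹ a⁻¹`. -/
def rel {H : Type u} [Group H] (y u a : H) : H :=
  y * (y * a * y⁻¹ * a⁻¹) * y⁻¹ * (u * (y * a * y⁻¹ * a⁻¹) * u⁻¹)⁻¹

/-- The centre of `Q`, as a subgroup of the ambient group. -/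
def zq {Γ : Type u} [Group Γ] (Q : Subgroup Γ) : Subgroup Γ :=
  Q ⊓ Subgroup.centralizer (Q : Set Γ)

/-- `[Q, y] Z(Q)`: the subgroup generated by the commutators `y a y⁻¹ a⁻¹` (`a ∈ Q`) and the
centre of `Q`. -/
def qm {Γ : Type u} [Group Γ] (Q : Subgroup Γ) (y : Γ) : Subgroup Γ :=
  Subgroup.closure {c : Γ | ∃ a ∈ Q, c = y * a * y⁻¹ * a⁻¹} ⊔ zq Q

/-- The subgroup generated by the `m`-th powers of the elements of `T`. -/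
def ypow {H : Type u} [Group H] (T : Subgroup H) (m : ℕ) : Subgroup H :=
  Subgroup.closure {y : H | ∃ t ∈ T, y = t ^ m}

/-- The abstract (faithful) local configuration: `Q ⊴ Γ` a `q`-group of class at most `2`
whose centre acts by scalars, `x` of order dividing `p ^ k` with vanishing norm, and `z` acting
on `Q / Z(Q)` fixed point freely, with `z ^ p` trivial and commuting with `x` there. -/
structure AbsCtx (p q : ℕ) {F : Type w} [Field F] {Γ : Type u} [Group Γ] {U : Type v}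
    [AddCommGroup U] [Module F U] (ρ : Representation F Γ U) (Q : Subgroup Γ) (x z : Γ)
    (k : ℕ) : Prop where
  hqp : q ≠ p
  hQ : IsPGroup q Q
  hinj : Function.Injective ρ
  hzsc : ∀ c ∈ zq Q, ∃ s : F, ρ c = s • (1 : Module.End F U)
  hcl2 : ∀ a ∈ Q, ∀ b ∈ Q, a * b * a⁻¹ * b⁻¹ ∈ zq Q
  hk : 1 ≤ k
  hxk : x ^ p ^ k = 1
  hnz : (ρ x - 1) ^ (p ^ k - 1) = 0
  hzf : ∀ a ∈ Q, z * a * z⁻¹ * a⁻¹ ∈ zq Q → a ∈ zq Q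
  hzp : ∀ a ∈ Q, z ^ p * a * (z ^ p)⁻¹ * a⁻¹ ∈ zq Q
  hzx : ∀ a ∈ Q, (z * x * z⁻¹ * x⁻¹) * a * (z * x * z⁻¹ * x⁻¹)⁻¹ * a⁻¹ ∈ zq Q

/-- The configuration of Theorem EC after the choice of the critical `q`-subgroup `Q`, the
element `z` and the module `W`. -/
structure ECctx (p q n : ℕ) {F : Type w} [Field F] {H : Type u} [Group H] {V : Type v}
    [AddCommGroup V] [Module F V] (ρ : Representation F H V) (T Q : Subgroup H) (z : H)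
    (W : Submodule F V) : Prop where
  hp2 : p ≠ 2
  hqp : q ≠ p
  hn : 1 ≤ n
  hinj : Function.Injective ρ
  hT : IsPGroup p T
  hQ : IsPGroup q Q
  hnz : ∀ t ∈ T, (ρ t - 1) ^ (p ^ n - 1) = 0
  hTQ : ∀ b ∈ T, ∀ g ∈ Q, b * g * b⁻¹ ∈ Q
  hcent : ∀ c ∈ frat Q, ∀ g ∈ Q, c * g = g * c
  hzT : z ∈ T
  hzY : z ∈ ypow T (p ^ (n - 1))
  hzfpf : ∀ g ∈ Q, z * g * z⁻¹ * g⁻¹ ∈ frat Q → g ∈ frat Q
  hzcen : ∀ b ∈ T, ∀ g ∈ Q, (z * b * z⁻¹ * b⁻¹) * g * (z * b * z⁻¹ * b⁻¹)⁻¹ * g⁻¹ ∈ frat Q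
  hzp : ∀ g ∈ Q, z ^ p * g * (z ^ p)⁻¹ * g⁻¹ ∈ frat Q
  hW0 : W ≠ ⊥
  hWQ : ∀ g ∈ Q, W.map (ρ g) ≤ W
  hWT : ∀ b ∈ T, W.map (ρ b) ≤ W

/-! ## Group theory packages -/

/-- (C1) The critical `q`-subgroup for a normal subgroup `A ≠ 1` of the `p`-subgroup `B`
(generalization of `HH89.LemCrit`, with two more conclusions). -/
def LemCritN : Prop :=
  ∀ {p : ℕ} [Fact p.Prime] {H : Type u} [Group H] [Finite H],
    Cfsg.IsPSolvable p H → Cfsg.pCore p H = ⊥ → ∀ (B A : Subgroup H), IsPGroup p B → A ≤ B →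
    (∀ b ∈ B, ∀ a ∈ A, b * a * b⁻¹ ∈ A) → A ≠ ⊥ →
    ∃ (q : ℕ) (Q : Subgroup H) (z : H), q.Prime ∧ q ≠ p ∧ IsPGroup q Q ∧ z ∈ A ∧
      (∀ b ∈ B, ∀ g ∈ Q, b * g * b⁻¹ ∈ Q) ∧
      (∀ Q₁ : Subgroup H, Q₁ ≤ Q → Q₁ ≠ Q → (∀ b ∈ B, ∀ g ∈ Q₁, b * g * b⁻¹ ∈ Q₁) →
        ∀ a ∈ A, ∀ g ∈ Q₁, a * g = g * a) ∧
      (∀ g ∈ Q, z * g * z⁻¹ * g⁻¹ ∈ frat Q → g ∈ frat Q) ∧
      (∃ g ∈ Q, g ∉ frat Q) ∧
      (∀ c ∈ frat Q, ∀ g ∈ Q, c * g = g * c) ∧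
      (∀ a ∈ A, ∀ c ∈ frat Q, a * c = c * a) ∧
      Q ≤ Subgroup.closure {x : H | ∃ g ∈ Q, x = z * g * z⁻¹ * g⁻¹} ∧
      (∀ b ∈ B, ∀ g ∈ Q,
        (z * b * z⁻¹ * b⁻¹) * g * (z * b * z⁻¹ * b⁻¹)⁻¹ * g⁻¹ ∈ frat Q) ∧
      (∀ g ∈ Q, z ^ p * g * (z ^ p)⁻¹ * g⁻¹ ∈ frat Q)

/-- (C2) The subgroup `Y` generated by the `m`-th powers of the elements of `T`. -/
def LemY : Prop :=
  ∀ {H : Type u} [Group H] [Finite H] (T Q : Subgroup H) (m : ℕ),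
    (∀ b ∈ T, ∀ g ∈ Q, b * g * b⁻¹ ∈ Q) →
    ypow T m ≤ T ∧ (∀ b ∈ T, ∀ a ∈ ⁅ypow T m, ypow T m⁆, b * a * b⁻¹ ∈ ⁅ypow T m, ypow T m⁆) ∧
    ((∀ t ∈ T, ∀ t' ∈ T, ∀ a ∈ Q,
        (t ^ m * t' ^ m * (t ^ m)⁻¹ * (t' ^ m)⁻¹) * a * (t ^ m * t' ^ m * (t ^ m)⁻¹ * (t' ^ m)⁻¹)⁻¹
          * a⁻¹ ∈ frat Q) →
      ∀ c ∈ ⁅ypow T m, ypow T m⁆, ∀ a ∈ Q, c * a * c⁻¹ * a⁻¹ ∈ frat Q)

/-- (C3) Fixed point freeness passes to the quotient by a `z`-invariant subgroup. -/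
def LemFpfQuot : Prop :=
  ∀ {p q : ℕ} [Fact p.Prime] [Fact q.Prime] {H : Type u} [Group H] [Finite H]
    (Q N : Subgroup H) (z : H),
    q ≠ p → IsPGroup q Q → (∀ a ∈ Q, z * a * z⁻¹ ∈ Q) → frat Q ≤ N → N ≤ Q →
    (∀ a ∈ N, z * a * z⁻¹ ∈ N) →
    (∀ g ∈ Q, z * g * z⁻¹ * g⁻¹ ∈ frat Q → g ∈ frat Q) →
    (∀ g ∈ Q, z ^ p * g * (z ^ p)⁻¹ * g⁻¹ ∈ frat Q) →
    ∀ g ∈ Q, z * g * z⁻¹ * g⁻¹ ∈ N → g ∈ N

/-- (C4) `y = x ^ p ^ (k - 1)` is a power of `z` on a small abelian section `M / N` on which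
`y` and `z` act fixed point freely. -/
def LemCycS : Prop :=
  ∀ {p : ℕ} [Fact p.Prime] {Γ : Type u} [Group Γ] [Finite Γ] (M N : Subgroup Γ) (x z : Γ)
    (k : ℕ),
    (Nat.card M).Coprime p → N ≤ M → (∀ a ∈ M, ∀ b ∈ M, a * b * a⁻¹ * b⁻¹ ∈ N) →
    (∀ a ∈ M, x * a * x⁻¹ ∈ M) → (∀ a ∈ N, x * a * x⁻¹ ∈ N) →
    (∀ a ∈ M, z * a * z⁻¹ ∈ M) → (∀ a ∈ N, z * a * z⁻¹ ∈ N) →
    1 ≤ k → x ^ p ^ k = 1 →
    (∀ a ∈ M, x ^ p ^ (k - 1) * a * (x ^ p ^ (k - 1))⁻¹ * a⁻¹ ∈ N → a ∈ N) →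
    (∀ a ∈ M, z * a * z⁻¹ * a⁻¹ ∈ N → a ∈ N) →
    (∀ a ∈ M, z ^ p * a * (z ^ p)⁻¹ * a⁻¹ ∈ N) →
    (∀ a ∈ M, (z * x * z⁻¹ * x⁻¹) * a * (z * x * z⁻¹ * x⁻¹)⁻¹ * a⁻¹ ∈ N) →
    Nat.card M ≤ (p ^ k - 1) ^ 2 * Nat.card N →
    ∃ i : ℕ, ∀ a ∈ M, x ^ p ^ (k - 1) * a * (x ^ p ^ (k - 1))⁻¹ * (z ^ i * a * (z ^ i)⁻¹)⁻¹ ∈ N

/-- (C5) Lemma Q: in a finite `p`-group (`p` odd) acting on a finite abelian `p'`-group `X`,
with `z` central in the action, fixed point free and of order `p`, two elements satisfying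
`(y - z ^ i)(y - 1) = 0` commute. -/
def LemQ : Prop :=
  ∀ {p : ℕ} [Fact p.Prime] {X : Type u} [CommGroup X] [Finite X] {D : Type v} [Group D]
    [Finite D] (φ : D →* MulAut X) (z y₁ y₂ : D) (i₁ i₂ : ℕ),
    p ≠ 2 → IsPGroup p D → (Nat.card X).Coprime p →
    (∀ d : D, φ z * φ d = φ d * φ z) →
    (∀ x : X, φ z x = x → x = 1) →
    (φ z) ^ p = 1 →
    (∀ x : X, φ y₁ (φ y₁ x * x⁻¹) = (φ z ^ i₁) (φ y₁ x * x⁻¹)) →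
    (∀ x : X, φ y₂ (φ y₂ x * x⁻¹) = (φ z ^ i₂) (φ y₂ x * x⁻¹)) →
    φ y₁ * φ y₂ = φ y₂ * φ y₁

/-- (C6) Lemma Q for an abelian section `M / N` of a group. -/
def LemQS : Prop :=
  ∀ {p : ℕ} [Fact p.Prime] {H : Type u} [Group H] [Finite H] (D M N : Subgroup H)
    (z y₁ y₂ : H) (i₁ i₂ : ℕ),
    p ≠ 2 → IsPGroup p D → (Nat.card M).Coprime p → N ≤ M →
    (∀ a ∈ M, ∀ b ∈ M, a * b * a⁻¹ * b⁻¹ ∈ N) →
    (∀ d ∈ D, ∀ a ∈ M, d * a * d⁻¹ ∈ M) → (∀ d ∈ D, ∀ a ∈ N, d * a * d⁻¹ ∈ N) →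
    z ∈ D → y₁ ∈ D → y₂ ∈ D →
    (∀ d ∈ D, ∀ a ∈ M, (z * d * z⁻¹ * d⁻¹) * a * (z * d * z⁻¹ * d⁻¹)⁻¹ * a⁻¹ ∈ N) →
    (∀ a ∈ M, z * a * z⁻¹ * a⁻¹ ∈ N → a ∈ N) →
    (∀ a ∈ M, z ^ p * a * (z ^ p)⁻¹ * a⁻¹ ∈ N) →
    (∀ a ∈ M, rel y₁ (z ^ i₁) a ∈ N) → (∀ a ∈ M, rel y₂ (z ^ i₂) a ∈ N) →
    ∀ a ∈ M, (y₁ * y₂ * y₁⁻¹ * y₂⁻¹) * a * (y₁ * y₂ * y₁⁻¹ * y₂⁻¹)⁻¹ * a⁻¹ ∈ N

/-! ## The abstract local theorem -/

/-- (A1) The dimension bound in the critical configuration, general nilpotency index. -/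
def LemDimAbsG : Prop :=
  ∀ {p q : ℕ} [Fact p.Prime] [Fact q.Prime] {F : Type w} [Field F] [IsAlgClosed F] [CharP F p]
    {G : Type u} [Group G] [Finite G] {V : Type v} [AddCommGroup V] [Module F V]
    [FiniteDimensional F V] [Nontrivial V] (ρ : Representation F G V) (Q C : Subgroup G)
    [Q.Normal] (x : G) (k : ℕ),
    q ≠ p → IsPGroup q Q → Function.Injective ρ →
    Q ⊔ Subgroup.zpowers x = ⊤ → 1 ≤ k → x ^ p ^ k = 1 →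
    (∀ U : Submodule F V, (∀ g : G, U.map (ρ g) ≤ U) → U = ⊥ ∨ U = ⊤) →
    (ρ x - 1) ^ (p ^ k - 1) = 0 →
    C ≤ Q →
    (∀ c ∈ C, ∃ μ : F, ρ c = μ • (1 : Module.End F V)) →
    (∀ a ∈ Q, ∀ b ∈ Q, a * b * a⁻¹ * b⁻¹ ∈ C) →
    (∀ a ∈ Q, (∀ b ∈ Q, a * b = b * a) → a ∈ C) →
    (∀ a ∈ Q, x ^ p ^ (k - 1) * a = a * x ^ p ^ (k - 1) → a ∈ C) →
    (∃ a ∈ Q, x ^ p ^ (k - 1) * a ≠ a * x ^ p ^ (k - 1)) →
    finrank F V + 1 ≤ p ^ k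

/-- (A2) The central type bound, for a not necessarily faithful representation. -/
def LemCTB : Prop :=
  ∀ {p q : ℕ} [Fact p.Prime] [Fact q.Prime] {F : Type w} [Field F] [IsAlgClosed F] [CharP F p]
    {Γ : Type u} [Group Γ] [Finite Γ] {V : Type v} [AddCommGroup V] [Module F V]
    [FiniteDimensional F V] [Nontrivial V] (ρ : Representation F Γ V) (Q C : Subgroup Γ)
    [Q.Normal] (x : Γ) (k : ℕ),
    q ≠ p → IsPGroup q Q → Q ⊔ Subgroup.zpowers x = ⊤ → 1 ≤ k → x ^ p ^ k = 1 →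
    (∀ U : Submodule F V, (∀ g : Γ, U.map (ρ g) ≤ U) → U = ⊥ ∨ U = ⊤) →
    (ρ x - 1) ^ (p ^ k - 1) = 0 →
    (∀ a ∈ Q, ∀ b ∈ Q, ∃ s : F, ρ (a * b * a⁻¹ * b⁻¹) = s • (1 : Module.End F V)) →
    (∀ a ∈ Q, (∀ b ∈ Q, ρ (a * b) = ρ (b * a)) → ∃ s : F, ρ a = s • (1 : Module.End F V)) →
    (∀ a ∈ Q, ρ (x ^ p ^ (k - 1) * a) = ρ (a * x ^ p ^ (k - 1)) →
      ∃ s : F, ρ a = s • (1 : Module.End F V)) →
    (∃ a ∈ Q, ρ (x ^ p ^ (k - 1) * a) ≠ ρ (a * x ^ p ^ (k - 1))) →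
    C ≤ Q → (∀ a ∈ Q, (∃ s : F, ρ a = s • (1 : Module.End F V)) → a ∈ C) →
    Nat.card Q ≤ (p ^ k - 1) ^ 2 * Nat.card C

/-- (A3) Group theory of `M = [Q, y] Z(Q)` in the abstract local configuration. -/
def LemQm : Prop :=
  ∀ {p q : ℕ} [Fact p.Prime] [Fact q.Prime] {F : Type w} [Field F] [CharP F p]
    {Γ : Type u} [Group Γ] [Finite Γ] {U : Type v} [AddCommGroup U] [Module F U]
    (ρ : Representation F Γ U) (Q : Subgroup Γ) [Q.Normal] (x z : Γ) (k : ℕ),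
    AbsCtx p q ρ Q x z k →
    qm Q (x ^ p ^ (k - 1)) ≤ Q ∧
    (∀ a ∈ qm Q (x ^ p ^ (k - 1)),
      x ^ p ^ (k - 1) * a * (x ^ p ^ (k - 1))⁻¹ * a⁻¹ ∈ zq Q → a ∈ zq Q) ∧
    (∀ a ∈ qm Q (x ^ p ^ (k - 1)), (∀ b ∈ qm Q (x ^ p ^ (k - 1)), a * b = b * a) → a ∈ zq Q) ∧
    (∀ a ∈ qm Q (x ^ p ^ (k - 1)), x * a * x⁻¹ ∈ qm Q (x ^ p ^ (k - 1))) ∧
    (∀ a ∈ qm Q (x ^ p ^ (k - 1)), z * a * z⁻¹ ∈ qm Q (x ^ p ^ (k - 1)))

/-- (A4) `|[Q, y] Z(Q) : Z(Q)| ≤ (p ^ k - 1) ^ 2`. -/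
def LemQmCard : Prop :=
  ∀ {p q : ℕ} [Fact p.Prime] [Fact q.Prime] {F : Type w} [Field F] [IsAlgClosed F] [CharP F p]
    {Γ : Type u} [Group Γ] [Finite Γ] {U : Type v} [AddCommGroup U] [Module F U]
    [FiniteDimensional F U] [Nontrivial U]
    (ρ : Representation F Γ U) (Q : Subgroup Γ) [Q.Normal] (x z : Γ) (k : ℕ),
    AbsCtx p q ρ Q x z k →
    Nat.card (qm Q (x ^ p ^ (k - 1))) ≤ (p ^ k - 1) ^ 2 * Nat.card (zq Q)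

/-- (A5) The abstract local theorem: `y = x ^ p ^ (k - 1)` acts on `[Q / Z(Q), y]` as a power
of `z`. -/
def LTabs : Prop :=
  ∀ {p q : ℕ} [Fact p.Prime] [Fact q.Prime] {F : Type w} [Field F] [IsAlgClosed F] [CharP F p]
    {Γ : Type u} [Group Γ] [Finite Γ] {U : Type v} [AddCommGroup U] [Module F U]
    [FiniteDimensional F U] [Nontrivial U]
    (ρ : Representation F Γ U) (Q : Subgroup Γ) [Q.Normal] (x z : Γ) (k : ℕ),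
    AbsCtx p q ρ Q x z k →
    ∃ i : ℕ, ∀ a ∈ Q, rel (x ^ p ^ (k - 1)) (z ^ i) a ∈ zq Q

/-! ## Pieces -/

/-- (P1) The elements of `Q` central modulo the kernel on a `Q`-invariant `U` form a
subgroup. -/
def LemCenSub : Prop :=
  ∀ {F : Type w} [Field F] {H : Type u} [Group H] {V : Type v} [AddCommGroup V] [Module F V]
    (ρ : Representation F H V) (Q : Subgroup H) (U : Submodule F V),
    (∀ a ∈ Q, U.map (ρ a) ≤ U) → ∃ N : Subgroup H, ∀ a, a ∈ N ↔ CenOn ρ Q U a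

/-- (P2) Existence of a piece. -/
def LemPieceExists : Prop :=
  ∀ {F : Type w} [Field F] [IsAlgClosed F] {H : Type u} [Group H] [Finite H] {V : Type v}
    [AddCommGroup V] [Module F V] [FiniteDimensional F V] (ρ : Representation F H V)
    (Q : Subgroup H) (W : Submodule F V),
    W ≠ ⊥ → (∀ a ∈ Q, W.map (ρ a) ≤ W) →
    (∀ a ∈ Q, ∀ b ∈ Q, ∀ d ∈ Q, (a * b * a⁻¹ * b⁻¹) * d = d * (a * b * a⁻¹ * b⁻¹)) →
    ∃ U, IsPiece ρ Q W U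

/-- (P3) Translates of pieces are pieces. -/
def LemPieceConj : Prop :=
  ∀ {F : Type w} [Field F] {H : Type u} [Group H] {V : Type v} [AddCommGroup V] [Module F V]
    (ρ : Representation F H V) (Q : Subgroup H) (W U : Submodule F V) (t : H),
    (∀ a ∈ Q, t * a * t⁻¹ ∈ Q) → (∀ a ∈ Q, t⁻¹ * a * t ∈ Q) →
    W.map (ρ t) ≤ W → W.map (ρ t⁻¹) ≤ W → IsPiece ρ Q W U → IsPiece ρ Q W (U.map (ρ t))

/-- (P4) Distinct pieces are linearly independent. -/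
def LemPieceIndep : Prop :=
  ∀ {F : Type w} [Field F] {H : Type u} [Group H] {V : Type v} [AddCommGroup V] [Module F V]
    (ρ : Representation F H V) (Q : Subgroup H) (W : Submodule F V),
    (∀ a ∈ Q, ∀ b ∈ Q, ∀ d ∈ Q, (a * b * a⁻¹ * b⁻¹) * d = d * (a * b * a⁻¹ * b⁻¹)) →
    ∀ (ι : Type) [Fintype ι] (Us : ι → Submodule F V) (vs : ι → V),
      (∀ i, IsPiece ρ Q W (Us i)) → Function.Injective Us → (∀ i, vs i ∈ Us i) →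
      ∑ i, vs i = 0 → ∀ i, vs i = 0

/-- (P5) The stabilizer in `⟨t⟩` of a piece: it contains `t ^ p ^ j` with `j < n`, and this
element has vanishing norm on the piece. -/
def LemStab : Prop :=
  ∀ {p : ℕ} [Fact p.Prime] {F : Type w} [Field F] [CharP F p] {H : Type u} [Group H] [Finite H]
    {V : Type v} [AddCommGroup V] [Module F V] [FiniteDimensional F V]
    (ρ : Representation F H V) (Q : Subgroup H) (W U : Submodule F V) (t : H) (n : ℕ),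
    (∀ a ∈ Q, ∀ b ∈ Q, ∀ d ∈ Q, (a * b * a⁻¹ * b⁻¹) * d = d * (a * b * a⁻¹ * b⁻¹)) →
    (∀ a ∈ Q, t * a * t⁻¹ ∈ Q) → (∀ a ∈ Q, t⁻¹ * a * t ∈ Q) →
    W.map (ρ t) ≤ W → W.map (ρ t⁻¹) ≤ W → IsPiece ρ Q W U → t ^ p ^ n = 1 →
    (∀ w ∈ W, ((ρ t - 1) ^ (p ^ n - 1)) w = 0) →
    ∃ j : ℕ, j + 1 ≤ n ∧ U.map (ρ (t ^ p ^ j)) ≤ U ∧
      ∀ w ∈ U, ((ρ (t ^ p ^ j) - 1) ^ (p ^ (n - j) - 1)) w = 0

/-! ## The local theorem and its consequences in `H` -/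

/-- (H1) The local theorem on a subspace `U` (transfer of (A5) to the faithful quotient of
`⟨Q, x, z⟩` on `U`). -/
def LT : Prop :=
  ∀ {p q : ℕ} [Fact p.Prime] [Fact q.Prime] {F : Type w} [Field F] [IsAlgClosed F] [CharP F p]
    {H : Type u} [Group H] [Finite H] {V : Type v} [AddCommGroup V] [Module F V]
    [FiniteDimensional F V] (ρ : Representation F H V) (Q : Subgroup H) (U : Submodule F V)
    (x z : H) (k : ℕ),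
    q ≠ p → IsPGroup q Q →
    (∀ c ∈ frat Q, ∀ g ∈ Q, c * g = g * c) →
    U ≠ ⊥ → (∀ a ∈ Q, U.map (ρ a) ≤ U) →
    (∀ a, CenOn ρ Q U a → ∃ s : F, ∀ w ∈ U, ρ a w = s • w) →
    (∀ a ∈ Q, x * a * x⁻¹ ∈ Q) → U.map (ρ x) ≤ U → 1 ≤ k → x ^ p ^ k = 1 →
    (∀ w ∈ U, ((ρ x - 1) ^ (p ^ k - 1)) w = 0) →
    (∀ a ∈ Q, z * a * z⁻¹ ∈ Q) → U.map (ρ z) ≤ U →
    (∀ g ∈ Q, z * g * z⁻¹ * g⁻¹ ∈ frat Q → g ∈ frat Q) →
    (∀ g ∈ Q, z ^ p * g * (z ^ p)⁻¹ * g⁻¹ ∈ frat Q) →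
    (∀ g ∈ Q, (z * x * z⁻¹ * x⁻¹) * g * (z * x * z⁻¹ * x⁻¹)⁻¹ * g⁻¹ ∈ frat Q) →
    ∃ i : ℕ, ∀ a ∈ Q, CenOn ρ Q U (rel (x ^ p ^ (k - 1)) (z ^ i) a)

/-- (H2) On every piece, the `p ^ (n - 1)`-th powers of two elements of `T` commute in their
action on `Q` modulo the centre of the piece. -/
def LemPieceComm : Prop :=
  ∀ {p q n : ℕ} [Fact p.Prime] [Fact q.Prime] {F : Type w} [Field F] [IsAlgClosed F]
    [CharP F p] {H : Type u} [Group H] [Finite H] {V : Type v} [AddCommGroup V] [Module F V]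
    [FiniteDimensional F V] (ρ : Representation F H V) (T Q : Subgroup H) (z : H)
    (W U : Submodule F V),
    ECctx p q n ρ T Q z W → IsPiece ρ Q W U → ∀ t ∈ T, ∀ t' ∈ T, ∀ a ∈ Q,
      CenOn ρ Q U
        ((t ^ p ^ (n - 1) * t' ^ p ^ (n - 1) * (t ^ p ^ (n - 1))⁻¹ * (t' ^ p ^ (n - 1))⁻¹) * a *
          (t ^ p ^ (n - 1) * t' ^ p ^ (n - 1) * (t ^ p ^ (n - 1))⁻¹ * (t' ^ p ^ (n - 1))⁻¹)⁻¹ *
          a⁻¹)

/-- (H3) An element of `Q` that is central modulo the kernel on every piece lies in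
`Φ(Q)`. -/
def LemDstar : Prop :=
  ∀ {p q n : ℕ} [Fact p.Prime] [Fact q.Prime] {F : Type w} [Field F] [IsAlgClosed F]
    [CharP F p] {H : Type u} [Group H] [Finite H] {V : Type v} [AddCommGroup V] [Module F V]
    [FiniteDimensional F V] (ρ : Representation F H V) (T Q : Subgroup H) (z : H)
    (W : Submodule F V),
    ECctx p q n ρ T Q z W →
    (∀ U : Submodule F V, U ≠ ⊥ → U ≤ W → (∀ g ∈ Q, U.map (ρ g) ≤ U) →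
      ∃ a ∈ Q, ∃ b ∈ Q, ∃ u ∈ U, ρ (a * b) u ≠ ρ (b * a) u) →
    (∀ Q₁ : Subgroup H, Q₁ ≤ Q → Q₁ ≠ Q → (∀ b ∈ T, ∀ g ∈ Q₁, b * g * b⁻¹ ∈ Q₁) →
      Q₁ ≤ frat Q) →
    ∀ a ∈ Q, (∀ U, IsPiece ρ Q W U → CenOn ρ Q U a) → a ∈ frat Q

/-- (H4) The module `W` (first half of `HH89.LemW`). -/
def LemW0 : Prop :=
  ∀ {p q : ℕ} [Fact p.Prime] [Fact q.Prime] {F : Type w} [Field F] [IsAlgClosed F] [CharP F p]
    {H : Type u} [Group H] [Finite H] {V : Type v} [AddCommGroup V] [Module F V]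
    [FiniteDimensional F V] (ρ : Representation F H V) (B Q : Subgroup H),
    q ≠ p → IsPGroup q Q → (∀ b ∈ B, ∀ g ∈ Q, b * g * b⁻¹ ∈ Q) →
    (∃ a ∈ Q, ∃ b ∈ Q, ρ (a * b) ≠ ρ (b * a)) →
    ∃ W : Submodule F V, W ≠ ⊥ ∧ (∀ g ∈ Q, W.map (ρ g) ≤ W) ∧ (∀ b ∈ B, W.map (ρ b) ≤ W) ∧
      (∀ U : Submodule F V, U ≠ ⊥ → U ≤ W → (∀ g ∈ Q, U.map (ρ g) ≤ U) →
        ∃ a ∈ Q, ∃ b ∈ Q, ∃ u ∈ U, ρ (a * b) u ≠ ρ (b * a) u)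

end Cfsg.Agent.Lib.Helper70.HH86
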