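import Mathlib
import Cfsg.Agent.Lib.Helper70.HH.S3786Defs2
import Cfsg.Agent.Lib.Helper32.HHCrit
import Cfsg.Agent.Lib.Helper32.HHComm
import Cfsg.Agent.Lib.Helper32.TBHomog

/-!
# S3786: package LemDimAbsG (helper70)
-/

set_option autoImplicit false

namespace Cfsg.Agent.Lib.Helper70.HH86

open Module

universe u v w

/-- In a cyclic group of order `p ^ k`, every nontrivial subgroup contains `x ^ p ^ (k - 1)`. -/
theorem pow_mem_zpowers_of_ne_one {G : Type u} [Group G] {p : ℕ} (hp : p.Prime) (x : G) (k : ℕ)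
    (hk : 1 ≤ k) (hxk : x ^ p ^ k = 1) (hy1 : x ^ p ^ (k - 1) ≠ 1) (x' : G)
    (hx' : x' ∈ Subgroup.zpowers x) (hx'1 : x' ≠ 1) :
    x ^ p ^ (k - 1) ∈ Subgroup.zpowers x' := by
  have hpF : Fact p.Prime := ⟨hp⟩
  have hkk : k = (k - 1) + 1 := by omega
  have hyp : (x ^ p ^ (k - 1)) ^ p = 1 := by
    rw [← pow_mul, ← pow_succ, ← hkk]
    exact hxk
  have hordy : orderOf (x ^ p ^ (k - 1)) = p := orderOf_eq_prime hyp hy1
  have hordx : orderOf x = p ^ k := by
    rw [hkk]
    exact orderOf_eq_prime_pow hy1 (by rw [← hkk]; exact hxk)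
  -- the order of `x'`
  have hx'k : x' ^ p ^ k = 1 := by
    obtain ⟨j, rfl⟩ := Subgroup.mem_zpowers_iff.1 hx'
    rw [← zpow_natCast, ← zpow_mul, mul_comm, zpow_mul, zpow_natCast, hxk, one_zpow]
  obtain ⟨b, hb, hordx'⟩ := (Nat.dvd_prime_pow hp).1 (orderOf_dvd_of_pow_eq_one hx'k)
  have hb1 : 1 ≤ b := by
    by_contra h
    have h0 : b = 0 := by omega
    rw [h0, pow_zero, orderOf_eq_one_iff] at hordx'
    exact hx'1 hordx'
  have hbb : b = (b - 1) + 1 := by omega
  -- an element of order `p` in `zpowers x'`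
  set w := x' ^ p ^ (b - 1) with hw
  have hwp : w ^ p = 1 := by
    rw [hw, ← pow_mul, ← pow_succ, ← hbb, ← hordx']
    exact pow_orderOf_eq_one x'
  have hw1 : w ≠ 1 := by
    intro h
    have h1 := orderOf_dvd_of_pow_eq_one h
    rw [hordx'] at h1
    have h2 := Nat.le_of_dvd (pow_pos hp.pos _) h1
    have h3 : p ^ (b - 1) < p ^ b := Nat.pow_lt_pow_right hp.one_lt (by omega)
    omega
  have hwx' : w ∈ Subgroup.zpowers x' := Subgroup.pow_mem _ (Subgroup.mem_zpowers x') _
  have hwx : w ∈ Subgroup.zpowers x := Subgroup.pow_mem _ hx' _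
  -- `w` is a power of `y`
  have hwy : w ∈ Subgroup.zpowers (x ^ p ^ (k - 1)) := by
    obtain ⟨i, hi⟩ := Subgroup.mem_zpowers_iff.1 hwx
    have h1 : x ^ (i * (p : ℤ)) = 1 := by
      rw [zpow_mul, hi, zpow_natCast]
      exact hwp
    have h2 := orderOf_dvd_iff_zpow_eq_one.2 h1
    rw [hordx] at h2
    have h3 : ((p ^ (k - 1) : ℕ) : ℤ) ∣ i := by
      have h4 : ((p ^ (k - 1) : ℕ) : ℤ) * (p : ℤ) ∣ i * (p : ℤ) := by
        have h5 : ((p ^ k : ℕ) : ℤ) = ((p ^ (k - 1) : ℕ) : ℤ) * (p : ℤ) := by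
          rw [← Nat.cast_mul, ← pow_succ, ← hkk]
        rw [← h5]
        exact h2
      exact Int.dvd_of_mul_dvd_mul_right (by exact_mod_cast hp.ne_zero) h4
    obtain ⟨c, hc⟩ := h3
    rw [Subgroup.mem_zpowers_iff]
    refine ⟨c, ?_⟩
    rw [← hi, hc, zpow_mul, zpow_natCast]
  have hzw : Subgroup.zpowers w = Subgroup.zpowers (x ^ p ^ (k - 1)) := by
    have hfin : Finite (Subgroup.zpowers (x ^ p ^ (k - 1))) :=
      IsOfFinOrder.finite_zpowers (isOfFinOrder_iff_pow_eq_one.2 ⟨p, hp.pos, hyp⟩)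
    apply Subgroup.eq_of_le_of_card_ge ((Subgroup.zpowers_le).2 hwy)
    rw [Nat.card_zpowers, Nat.card_zpowers, hordy, orderOf_eq_prime hwp hw1]
  have h6 : x ^ p ^ (k - 1) ∈ Subgroup.zpowers w := by
    rw [hzw]
    exact Subgroup.mem_zpowers _
  exact (Subgroup.zpowers_le.2 hwx') h6

theorem lemDimAbsG : LemDimAbsG.{u, v, w} := by
  intro p q _ _ F _ _ _ G _ _ V _ _ _ _ ρ Q C _ x k hqp hQ hinj hgen hk hxk hirr hnz hCQ hCscal
    hcomm hcen hfix hex
  obtain ⟨a₀, ha₀Q, ha₀⟩ := hex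
  classical
  have hpp : p.Prime := Fact.out
  have hqq : q.Prime := Fact.out
  have hqF : (q : F) ≠ 0 := by
    intro h0
    have h1 := (CharP.cast_eq_zero_iff F p q).1 h0
    exact hqp ((Nat.prime_dvd_prime_iff_eq hpp hqq).1 h1).symm
  have hirrQ := Cfsg.Agent.Lib.Helper32.irr_of_central_type ρ hinj Q x hgen q hQ hqF hirr C hCQ
    hCscal
    (fun a ha haC => by
      by_contra hcon
      push Not at hcon
      exact haC (hcen a ha hcon))
    hcomm
  have hkk : k = (k - 1) + 1 := by omega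
  have hy1 : x ^ p ^ (k - 1) ≠ 1 := by
    intro h
    apply ha₀
    rw [h, one_mul, mul_one]
  have hord : orderOf x = p ^ k := by
    rw [hkk]
    exact orderOf_eq_prime_pow hy1 (by rw [← hkk]; exact hxk)
  have hcard : Nat.card (Subgroup.zpowers x) = p ^ k := by rw [Nat.card_zpowers, hord]
  have hxP : IsPGroup p (Subgroup.zpowers x) := IsPGroup.of_card hcard
  have hCcen : ∀ c ∈ C, ∀ g : G, c * g = g * c := by
    intro c hc g
    apply hinj
    obtain ⟨μ, hμ⟩ := hCscal c hc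
    rw [map_mul, map_mul, hμ, smul_mul_assoc, one_mul, mul_smul_comm, mul_one]
  have hdecomp : ∀ g : G, ∃ a ∈ Q, ∃ j : ℤ, g = a * x ^ j := by
    intro g
    have hg : g ∈ Q ⊔ Subgroup.zpowers x := by rw [hgen]; exact Subgroup.mem_top g
    obtain ⟨a, ha, y, hy, rfl⟩ := Subgroup.mem_sup_of_normal_left.1 hg
    obtain ⟨j, rfl⟩ := Subgroup.mem_zpowers_iff.1 hy
    exact ⟨a, ha, j, rfl⟩
  have hxy : Commute x (x ^ p ^ (k - 1)) := (Commute.refl x).pow_right _
  -- elements commuting with `y`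
  have hcenty : ∀ g : G, Commute g (x ^ p ^ (k - 1)) → g ∈ Subgroup.zpowers x ⊔ C := by
    intro g hg
    obtain ⟨a, ha, j, rfl⟩ := hdecomp g
    have h1 : Commute a (x ^ p ^ (k - 1)) := by
      have h2 : Commute (a * x ^ j * (x ^ j)⁻¹) (x ^ p ^ (k - 1)) :=
        hg.mul_left (hxy.zpow_left j).inv_left
      rwa [mul_inv_cancel_right] at h2
    have haC := hfix a ha h1.symm.eq
    exact Subgroup.mul_mem _ (Subgroup.mem_sup_right haC)
      (Subgroup.mem_sup_left (Subgroup.zpow_mem _ (Subgroup.mem_zpowers x) j))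
  have hcenter : Subgroup.center G = C := by
    apply le_antisymm
    · intro g hg
      rw [Subgroup.mem_center_iff] at hg
      obtain ⟨a, ha, j, rfl⟩ := hdecomp g
      have h1 : Commute a (x ^ p ^ (k - 1)) := by
        have h2 : Commute (a * x ^ j * (x ^ j)⁻¹) (x ^ p ^ (k - 1)) :=
          (Commute.mul_left (hg _).symm (hxy.zpow_left j).inv_left)
        rwa [mul_inv_cancel_right] at h2
      have haC := hfix a ha h1.symm.eq
      by_cases hj : x ^ j = 1
      · rw [hj, mul_one]; exact haC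
      · exfalso
        have h3 : ∀ g' : G, Commute (x ^ j) g' := by
          intro g'
          have h4 : Commute (a⁻¹ * (a * x ^ j)) g' :=
            Commute.mul_left (Commute.inv_left (hCcen a haC g')) (hg g').symm
          rwa [inv_mul_cancel_left] at h4
        have h6 := pow_mem_zpowers_of_ne_one hpp x k hk hxk hy1 (x ^ j)
          (Subgroup.zpow_mem _ (Subgroup.mem_zpowers x) j) hj
        obtain ⟨c, hc⟩ := Subgroup.mem_zpowers_iff.1 h6
        have h7 : Commute (x ^ p ^ (k - 1)) a₀ := by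
          rw [← hc]
          exact (h3 a₀).zpow_left c
        exact ha₀ h7.eq
    · intro c hc
      rw [Subgroup.mem_center_iff]
      intro g
      exact (hCcen c hc g).symm
  have hC : ∀ y ∈ Subgroup.zpowers x, y ≠ 1 →
      Subgroup.centralizer ({y} : Set G) = Subgroup.zpowers x ⊔ Subgroup.center G := by
    intro y hy hy1'
    rw [hcenter]
    have h6 := pow_mem_zpowers_of_ne_one hpp x k hk hxk hy1 y hy hy1'
    obtain ⟨c, hc⟩ := Subgroup.mem_zpowers_iff.1 h6
    obtain ⟨j, hj⟩ := Subgroup.mem_zpowers_iff.1 hy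
    apply le_antisymm
    · intro g hg
      rw [Subgroup.mem_centralizer_singleton_iff] at hg
      apply hcenty
      rw [← hc]
      exact (Commute.zpow_right hg c)
    · apply sup_le
      · rw [Subgroup.zpowers_le, Subgroup.mem_centralizer_singleton_iff, ← hj]
        exact ((Commute.refl x).zpow_right j)
      · intro c' hc'
        rw [Subgroup.mem_centralizer_singleton_iff]
        exact hCcen c' hc' y
  have hcrit := Cfsg.Agent.Lib.Helper32.crit_commSub_bound ρ Q (fun h => hqp h.symm) hQ x hxP hgen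
    hC hinj hirrQ
  have hsq := Cfsg.Agent.Lib.Helper32.sq_finrank_le_mul_finrank_commSub (p ^ k - 1) (ρ x - 1) hnz
  have hcs : Cfsg.Agent.Lib.Helper32.commSub (ρ x - 1) =
      Cfsg.Agent.Lib.Helper32.commSub (ρ x) := by
    ext φ
    rw [Cfsg.Agent.Lib.Helper32.mem_commSub, Cfsg.Agent.Lib.Helper32.mem_commSub, sub_mul,
      mul_sub, one_mul, mul_one]
    constructor
    · intro h
      exact sub_left_injective h
    · intro h
      rw [h]
  rw [hcs] at hsq
  rw [hcard] at hcrit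
  have hP : 1 ≤ p ^ k := Nat.one_le_pow _ _ hpp.pos
  generalize finrank F (Cfsg.Agent.Lib.Helper32.commSub (ρ x)) = c at hsq hcrit
  generalize finrank F V = d at hsq hcrit ⊢
  obtain ⟨P', hP'⟩ : ∃ P', p ^ k = P' + 1 := ⟨p ^ k - 1, by omega⟩
  rw [hP'] at hsq hcrit ⊢
  simp only [Nat.add_sub_cancel] at hsq
  have hc : c ≤ P' := by nlinarith
  have hd : d ^ 2 ≤ P' ^ 2 := by nlinarith
  have hd' : d ≤ P' := by
    by_contra h
    push Not at h
    have : P' ^ 2 < d ^ 2 := Nat.pow_lt_pow_left h (by norm_num)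
    omega
  omega

end Cfsg.Agent.Lib.Helper70.HH86
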