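import Mathlib
import Cfsg.Agent.Lib.Helper70.HH.S3786Defs2
import Cfsg.Agent.Lib.Helper32.TBCore

/-!
# S3786: Theorem EC (algebraically closed field) from the packages (helper70)
-/

set_option autoImplicit false

namespace Cfsg.Agent.Lib.Helper70.HH86

open Module Cfsg.Agent.Lib.Helper70.HH89

open scoped commutatorElement

universe u v w

theorem ecAlg (hCrit : LemCritN.{u}) (hY : LemY.{u}) (hW0 : LemW0.{u, v, w})
    (hPC : LemPieceComm.{u, v, w}) (hD : LemDstar.{u, v, w}) : ECalg.{u, v, w} := by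
  intro p _ F _ _ _ H _ _ V _ _ _ ρ T n hp2 hsol hOp hinj hn hT hnz
  classical
  by_contra hcon
  push Not at hcon
  obtain ⟨t₀, ht₀, t₀', ht₀', hne⟩ := hcon
  have hpp : p.Prime := Fact.out
  have hV : Nontrivial V := by
    by_contra hV
    rw [not_nontrivial_iff_subsingleton] at hV
    apply hne
    apply hinj
    exact Subsingleton.elim _ _
  have hTpow : ∀ t ∈ T, t ^ p ^ n = 1 := by
    intro t ht
    apply hinj
    rw [map_pow, map_one]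
    have h1 := Cfsg.Agent.Lib.Helper32.sub_one_pow_char_pow_end (F := F) p (ρ t) n
    have h2 : (ρ t - 1) ^ p ^ n = 0 := by
      have h3 : p ^ n = (p ^ n - 1) + 1 := by
        have : 0 < p ^ n := pow_pos hpp.pos n
        omega
      rw [h3, pow_succ, hnz t ht, zero_mul]
    rw [h1] at h2
    exact sub_eq_zero.1 h2
  obtain ⟨hYT, hYn, -⟩ := hY T (⊥ : Subgroup H) (p ^ (n - 1)) (by
    intro b _ g hg
    rw [Subgroup.mem_bot] at hg
    rw [hg, mul_one, mul_inv_cancel]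
    exact Subgroup.one_mem _)
  have hAY : ⁅ypow T (p ^ (n - 1)), ypow T (p ^ (n - 1))⁆ ≤ ypow T (p ^ (n - 1)) :=
    Subgroup.commutator_le.2 (fun a ha b hb =>
      Subgroup.mul_mem _ (Subgroup.mul_mem _ (Subgroup.mul_mem _ ha hb) (Subgroup.inv_mem _ ha))
        (Subgroup.inv_mem _ hb))
  have hAT : ⁅ypow T (p ^ (n - 1)), ypow T (p ^ (n - 1))⁆ ≤ T := hAY.trans hYT
  have hA0 : ⁅ypow T (p ^ (n - 1)), ypow T (p ^ (n - 1))⁆ ≠ ⊥ := by
    intro h0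
    apply hne
    have h1 : ⁅t₀ ^ p ^ (n - 1), t₀' ^ p ^ (n - 1)⁆ ∈
        ⁅ypow T (p ^ (n - 1)), ypow T (p ^ (n - 1))⁆ :=
      Subgroup.commutator_mem_commutator (Subgroup.subset_closure ⟨t₀, ht₀, rfl⟩)
        (Subgroup.subset_closure ⟨t₀', ht₀', rfl⟩)
    rw [h0, Subgroup.mem_bot] at h1
    exact commutatorElement_eq_one_iff_mul_comm.1 h1
  obtain ⟨q, Q, z, hq, hqp, hQ, hzA, hTQ, hmin, hfpf, ⟨g₀, hg₀Q, hg₀⟩, hcent, hAfrat, hgen,
    hzcen, hzp⟩ := hCrit hsol hOp T _ hT hAT hYn hA0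
  have hqF : Fact q.Prime := ⟨hq⟩
  have hzT : z ∈ T := hAT hzA
  have hzY : z ∈ ypow T (p ^ (n - 1)) := hAY hzA
  have hnonab : ∃ a ∈ Q, ∃ b ∈ Q, ρ (a * b) ≠ ρ (b * a) := by
    have hex : ∃ t ∈ T, ∃ a ∈ Q, t ^ p ^ (n - 1) * a ≠ a * t ^ p ^ (n - 1) := by
      by_contra hall
      push Not at hall
      have hYc : ypow T (p ^ (n - 1)) ≤ Subgroup.centralizer (Q : Set H) := by
        unfold ypow
        rw [Subgroup.closure_le]
        rintro y ⟨t, ht, rfl⟩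
        rw [SetLike.mem_coe, Subgroup.mem_centralizer_iff]
        intro a ha
        exact (hall t ht a ha).symm
      have hz := Subgroup.mem_centralizer_iff.1 (hYc hzY) g₀ hg₀Q
      apply hg₀
      apply hfpf g₀ hg₀Q
      have h1 : z * g₀ * z⁻¹ * g₀⁻¹ = 1 := by
        rw [← hz]; group
      rw [h1]
      exact Subgroup.one_mem _
    obtain ⟨t, ht, a, ha, hta⟩ := hex
    have hTB := Cfsg.Agent.Lib.Helper32.tb_flex.{u, v, w} F p q (fun h => hqp h.symm)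
      (Nat.card Q + finrank F V) Q t ρ n (p ^ n - 1) hQ (hTQ t ht)
      (by
        intro a _
        rw [hTpow t ht, one_mul, mul_one])
      (by
        intro _
        exact ⟨a, ha, fun h => hta (hinj h)⟩)
      (hnz t ht) le_rfl
    rcases hTB with h | ⟨n₀, m', _, _, _, _, h, _⟩
    · exfalso
      have h3 : 0 < p ^ n := pow_pos hpp.pos n
      omega
    · exact h
  obtain ⟨W, hW0', hWQ, hWT, hnc⟩ := hW0 ρ T Q hqp hQ hTQ hnonab
  have hctx : ECctx p q n ρ T Q z W :=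
    { hp2 := hp2, hqp := hqp, hn := hn, hinj := hinj, hT := hT, hQ := hQ, hnz := hnz,
      hTQ := hTQ, hcent := hcent, hzT := hzT, hzY := hzY, hzfpf := hfpf, hzcen := hzcen,
      hzp := hzp, hW0 := hW0', hWQ := hWQ, hWT := hWT }
  have hmin' : ∀ Q₁ : Subgroup H, Q₁ ≤ Q → Q₁ ≠ Q → (∀ b ∈ T, ∀ g ∈ Q₁, b * g * b⁻¹ ∈ Q₁) →
      Q₁ ≤ frat Q := by
    intro Q₁ h1 h2 h3 g hg
    apply hfpf g (h1 hg)
    have h4 := hmin Q₁ h1 h2 h3 z hzA g hg
    have h5 : z * g * z⁻¹ * g⁻¹ = 1 := by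
      rw [h4]; group
    rw [h5]
    exact Subgroup.one_mem _
  have hkey : ∀ t ∈ T, ∀ t' ∈ T, ∀ a ∈ Q,
      (t ^ p ^ (n - 1) * t' ^ p ^ (n - 1) * (t ^ p ^ (n - 1))⁻¹ * (t' ^ p ^ (n - 1))⁻¹) * a *
        (t ^ p ^ (n - 1) * t' ^ p ^ (n - 1) * (t ^ p ^ (n - 1))⁻¹ * (t' ^ p ^ (n - 1))⁻¹)⁻¹ *
        a⁻¹ ∈ frat Q := by
    intro t ht t' ht' a ha
    have hcT : t ^ p ^ (n - 1) * t' ^ p ^ (n - 1) * (t ^ p ^ (n - 1))⁻¹ * (t' ^ p ^ (n - 1))⁻¹ ∈ T :=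
      T.mul_mem (T.mul_mem (T.mul_mem (T.pow_mem ht _) (T.pow_mem ht' _))
        (T.inv_mem (T.pow_mem ht _))) (T.inv_mem (T.pow_mem ht' _))
    apply hD ρ T Q z W hctx hnc hmin'
    · exact Q.mul_mem (hTQ _ hcT a ha) (Q.inv_mem ha)
    · intro U hU
      exact hPC ρ T Q z W U hctx hU t ht t' ht' a ha
  obtain ⟨-, -, hY3⟩ := hY T Q (p ^ (n - 1)) hTQ
  have hz := hY3 hkey z hzA g₀ hg₀Q
  exact hg₀ (hfpf g₀ hg₀Q hz)

end Cfsg.Agent.Lib.Helper70.HH86
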