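import Mathlib
import Cfsg.Agent.Lib.Helper70.HH.S3786Defs2

/-!
# S3786, part 2: package (A5) `LTabs` from `LemQm`, `LemQmCard`, `LemCycS` (helper70)
-/

set_option autoImplicit false

namespace Cfsg.Agent.Lib.Helper70.HH86

open Module Cfsg.Agent.Lib.Helper70.HH89

universe u v w

/-- The centre of a normal subgroup is invariant under conjugation. -/
theorem zq_conj_mem {Γ : Type u} [Group Γ] (Q : Subgroup Γ) [hQn : Q.Normal] (g a : Γ)
    (ha : a ∈ zq Q) : g * a * g⁻¹ ∈ zq Q := by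
  have haQ : a ∈ Q := ha.1
  have hac : a ∈ Subgroup.centralizer (Q : Set Γ) := ha.2
  refine Subgroup.mem_inf.mpr ⟨hQn.conj_mem a haQ g, ?_⟩
  rw [Subgroup.mem_centralizer_iff] at hac ⊢
  intro b hb
  have hb' : g⁻¹ * b * g ∈ Q := by
    have := hQn.conj_mem b hb g⁻¹
    simpa using this
  have h1 := hac (g⁻¹ * b * g) hb'
  calc b * (g * a * g⁻¹) = g * ((g⁻¹ * b * g) * a) * g⁻¹ := by group
    _ = g * (a * (g⁻¹ * b * g)) * g⁻¹ := by rw [h1]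
    _ = g * a * g⁻¹ * b := by group

/-- (A5) The abstract local theorem. -/
theorem ltAbs (hM : LemQm.{u, v, w}) (hC : LemQmCard.{u, v, w}) (hS : LemCycS.{u}) :
    LTabs.{u, v, w} := by
  intro p q _ _ F _ _ _ Γ _ _ U _ _ _ _ ρ Q hQn x z k ctx
  obtain ⟨hMQ, hyf, _, hxM, hzM⟩ := hM ρ Q x z k ctx
  have hcard := hC ρ Q x z k ctx
  have hNM : zq Q ≤ qm Q (x ^ p ^ (k - 1)) := le_sup_right
  have hcop : (Nat.card (qm Q (x ^ p ^ (k - 1)))).Coprime p := by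
    have hMq : IsPGroup q (qm Q (x ^ p ^ (k - 1))) := ctx.hQ.to_le hMQ
    obtain ⟨m, hm⟩ := IsPGroup.iff_card.mp hMq
    rw [hm]
    apply Nat.Coprime.pow_left
    exact (Nat.coprime_primes (Fact.out : q.Prime) (Fact.out : p.Prime)).mpr ctx.hqp
  obtain ⟨i, hi⟩ := hS (p := p) (qm Q (x ^ p ^ (k - 1))) (zq Q) x z k hcop hNM
    (fun a ha b hb => ctx.hcl2 a (hMQ ha) b (hMQ hb))
    hxM (fun a ha => zq_conj_mem Q x a ha) hzM (fun a ha => zq_conj_mem Q z a ha)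
    ctx.hk ctx.hxk hyf (fun a ha h => ctx.hzf a (hMQ ha) h)
    (fun a ha => ctx.hzp a (hMQ ha)) (fun a ha => ctx.hzx a (hMQ ha)) hcard
  refine ⟨i, fun a ha => ?_⟩
  have hc : x ^ p ^ (k - 1) * a * (x ^ p ^ (k - 1))⁻¹ * a⁻¹ ∈ qm Q (x ^ p ^ (k - 1)) :=
    (le_sup_left : _ ≤ qm Q (x ^ p ^ (k - 1))) (Subgroup.subset_closure ⟨a, ha, rfl⟩)
  exact hi _ hc

end Cfsg.Agent.Lib.Helper70.HH86
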