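import Mathlib
import Cfsg.Agent.Lib.Helper70.HH.S3786Defs2
import Cfsg.Agent.Lib.Helper9.HH.S3789W

/-!
# S3786, part 2: package (H4) `LemW0` (helper70)

`W` is the kernel of the sum over `[Q, Q]` (first half of `Helper9.HH89.lemW`).
-/

set_option autoImplicit false

namespace Cfsg.Agent.Lib.Helper70.HH86

open Module Cfsg.Agent.Lib.Helper70.HH89 Cfsg.Agent.Lib.Helper9.HH89

open scoped commutatorElement

universe u v w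

/-- (H4) The module `W`. -/
theorem lemW0 : LemW0.{u, v, w} := by
  intro p q _ _ F _ _ _ H _ _ V _ _ _ ρ B Q hqp hQ hBQ hnc
  classical
  haveI : Fintype ↥⁅Q, Q⁆ := Fintype.ofFinite _
  have hnorm : ∀ g : H, (∀ x ∈ Q, g * x * g⁻¹ ∈ Q) → ∀ c ∈ ⁅Q, Q⁆, g * c * g⁻¹ ∈ ⁅Q, Q⁆ := by
    intro g hg c hc
    have h1 : (⁅Q, Q⁆).map (MulAut.conj g).toMonoidHom ≤ ⁅Q, Q⁆ := by
      rw [Subgroup.map_commutator]
      apply Subgroup.commutator_mono <;>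
      · rintro _ ⟨x, hx, rfl⟩
        exact hg x hx
    exact h1 ⟨c, hc, rfl⟩
  have hKinv : ∀ g : H, (∀ x ∈ Q, g * x * g⁻¹ ∈ Q) → (∀ x ∈ Q, g⁻¹ * x * g ∈ Q) →
      (LinearMap.ker (∑ d : ↥⁅Q, Q⁆, ρ d.1)).map (ρ g) ≤ LinearMap.ker (∑ d : ↥⁅Q, Q⁆, ρ d.1) := by
    intro g hg hg'
    rintro _ ⟨v, hv, rfl⟩
    have hcomm := h9w_mul_sum ρ ⁅Q, Q⁆ g (hnorm g hg)
      (fun c hc => by
        have h := hnorm g⁻¹ (fun x hx => by simpa using hg' x hx) c hc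
        simpa using h)
    have hv' : (∑ d : ↥⁅Q, Q⁆, ρ d.1) v = 0 := hv
    show (∑ d : ↥⁅Q, Q⁆, ρ d.1) (ρ g v) = 0
    rw [← Module.End.mul_apply, ← hcomm, Module.End.mul_apply, hv', map_zero]
  have hKQ : ∀ g ∈ Q, (LinearMap.ker (∑ d : ↥⁅Q, Q⁆, ρ d.1)).map (ρ g) ≤
      LinearMap.ker (∑ d : ↥⁅Q, Q⁆, ρ d.1) := fun g hg =>
    hKinv g (fun x hx => Q.mul_mem (Q.mul_mem hg hx) (Q.inv_mem hg))
      (fun x hx => Q.mul_mem (Q.mul_mem (Q.inv_mem hg) hx) hg)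
  have hBQ' : ∀ b ∈ B, ∀ x ∈ Q, b⁻¹ * x * b ∈ Q := fun b hb x hx => by
    have h := hBQ b⁻¹ (B.inv_mem hb) x hx
    simpa using h
  have hKB : ∀ b ∈ B, (LinearMap.ker (∑ d : ↥⁅Q, Q⁆, ρ d.1)).map (ρ b) ≤
      LinearMap.ker (∑ d : ↥⁅Q, Q⁆, ρ d.1) := fun b hb => hKinv b (hBQ b hb) (hBQ' b hb)
  have hK0 : LinearMap.ker (∑ d : ↥⁅Q, Q⁆, ρ d.1) ≠ ⊥ := by
    intro hbot
    obtain ⟨a, ha, b, hb, hab⟩ := hnc
    apply hab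
    have hc : ⁅a, b⁆ ∈ ⁅Q, Q⁆ := Subgroup.commutator_mem_commutator ha hb
    have h1 : ρ ⁅a, b⁆ = 1 := by
      ext v
      have h2 : ρ ⁅a, b⁆ v - v ∈ LinearMap.ker (∑ d : ↥⁅Q, Q⁆, ρ d.1) := by
        rw [LinearMap.mem_ker, map_sub, ← Module.End.mul_apply, h9w_sum_mul ρ ⁅Q, Q⁆ _ hc, sub_self]
      rw [hbot, Submodule.mem_bot, sub_eq_zero] at h2
      rw [h2, Module.End.one_apply]
    have h3 : a * b = ⁅a, b⁆ * (b * a) := by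
      rw [commutatorElement_def]
      group
    rw [h3, map_mul, h1, one_mul]
  exact ⟨LinearMap.ker (∑ d : ↥⁅Q, Q⁆, ρ d.1), hK0, hKQ, hKB,
    fun U hU0 hUK hUQ => h9w_ker_prop ρ hqp Q hQ U hUK hU0 hUQ⟩

end Cfsg.Agent.Lib.Helper70.HH86
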