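import Mathlib
import Cfsg.Agent.Lib.Helper70.HH.S3789Defs
import Cfsg.Agent.Lib.Helper32.HHCrit
import Cfsg.Agent.Lib.Helper32.HHComm
import Cfsg.Agent.Lib.Helper32.TBHomog

/-!
# S3789: package LemDimAbs (helper70)
-/

set_option autoImplicit false

namespace Cfsg.Agent.Lib.Helper70.HH89

open Module

universe u v w

theorem lemDimAbs : LemDimAbs.{u, v, w} := by
  intro p q _ _ F _ _ _ G _ _ V _ _ _ _ ρ Q C _ x hp2 hqp hQ hinj hgen hxp hirr hquad hCQ hCscal
    hcomm hcen hfix hex
  obtain ⟨a₀, ha₀Q, ha₀⟩ := hex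
  classical
  have hpp : p.Prime := Fact.out
  have hqq : q.Prime := Fact.out
  have hqF : (q : F) ≠ 0 := by
    intro h0
    have h1 := (CharP.cast_eq_zero_iff F p q).1 h0
    exact hqp ((Nat.prime_dvd_prime_iff_eq hpp hqq).1 h1).symm
  have hirrQ := Cfsg.Agent.Lib.Helper32.irr_of_central_type ρ hinj Q x hgen q hQ hqF hirr C hCQ
    hCscal
    (fun a ha haC => by
      by_contra hcon
      push Not at hcon
      exact haC (hcen a ha hcon))
    hcomm
  have hx1 : x ≠ 1 := by
    rintro rfl
    exact ha₀ (by rw [one_mul, mul_one])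
  have hord : orderOf x = p := orderOf_eq_prime hxp hx1
  have hcard : Nat.card (Subgroup.zpowers x) = p := by rw [Nat.card_zpowers, hord]
  have hxP : IsPGroup p (Subgroup.zpowers x) :=
    IsPGroup.of_card (n := 1) (by rw [hcard, pow_one])
  have hCcen : ∀ c ∈ C, ∀ g : G, c * g = g * c := by
    intro c hc g
    apply hinj
    obtain ⟨μ, hμ⟩ := hCscal c hc
    rw [map_mul, map_mul, hμ, smul_mul_assoc, one_mul, mul_smul_comm, mul_one]
  have hdecomp : ∀ g : G, ∃ a ∈ Q, ∃ j : ℤ, g = a * x ^ j := by
    intro g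
    have hg : g ∈ Q ⊔ Subgroup.zpowers x := by rw [hgen]; exact Subgroup.mem_top g
    obtain ⟨a, ha, y, hy, rfl⟩ := Subgroup.mem_sup_of_normal_left.1 hg
    obtain ⟨j, rfl⟩ := Subgroup.mem_zpowers_iff.1 hy
    exact ⟨a, ha, j, rfl⟩
  -- elements commuting with `x`
  have hcentx : ∀ g : G, Commute g x → g ∈ Subgroup.zpowers x ⊔ C := by
    intro g hg
    obtain ⟨a, ha, j, rfl⟩ := hdecomp g
    have h1 : Commute a x := by
      have h2 : Commute (a * x ^ j * (x ^ j)⁻¹) x :=
        hg.mul_left ((Commute.refl x).zpow_left j).inv_left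
      rwa [mul_inv_cancel_right] at h2
    have haC := hfix a ha h1.symm.eq
    exact Subgroup.mul_mem _ (Subgroup.mem_sup_right haC)
      (Subgroup.mem_sup_left (Subgroup.zpow_mem _ (Subgroup.mem_zpowers x) j))
  have hzy : ∀ y ∈ Subgroup.zpowers x, y ≠ 1 → Subgroup.zpowers y = Subgroup.zpowers x := by
    intro y hy hy1
    have hyp : y ^ p = 1 := by
      obtain ⟨j, rfl⟩ := Subgroup.mem_zpowers_iff.1 hy
      rw [← zpow_natCast, ← zpow_mul, mul_comm, zpow_mul, zpow_natCast, hxp, one_zpow]
    have hordy : orderOf y = p := orderOf_eq_prime hyp hy1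
    apply Subgroup.eq_of_le_of_card_ge ((Subgroup.zpowers_le).2 hy)
    rw [Nat.card_zpowers, Nat.card_zpowers, hord, hordy]
  have hcenter : Subgroup.center G = C := by
    apply le_antisymm
    · intro g hg
      rw [Subgroup.mem_center_iff] at hg
      obtain ⟨a, ha, j, rfl⟩ := hdecomp g
      have h1 : Commute a x := by
        have h2 : Commute (a * x ^ j * (x ^ j)⁻¹) x :=
          (Commute.mul_left (hg x).symm ((Commute.refl x).zpow_left j).inv_left)
        rwa [mul_inv_cancel_right] at h2
      have haC := hfix a ha h1.symm.eq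
      by_cases hj : x ^ j = 1
      · rw [hj, mul_one]; exact haC
      · exfalso
        have h3 : ∀ g' : G, Commute (x ^ j) g' := by
          intro g'
          have h4 : Commute (a⁻¹ * (a * x ^ j)) g' :=
            Commute.mul_left (Commute.inv_left (hCcen a haC g')) (hg g').symm
          rwa [inv_mul_cancel_left] at h4
        have h5 := hzy (x ^ j) (Subgroup.zpow_mem _ (Subgroup.mem_zpowers x) j) hj
        have h6 : x ∈ Subgroup.zpowers (x ^ j) := by rw [h5]; exact Subgroup.mem_zpowers x
        obtain ⟨k, hk⟩ := Subgroup.mem_zpowers_iff.1 h6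
        have h7 : Commute x a₀ := by
          rw [← hk]
          exact (h3 a₀).zpow_left k
        exact ha₀ h7.eq
    · intro c hc
      rw [Subgroup.mem_center_iff]
      intro g
      exact (hCcen c hc g).symm
  have hC : ∀ y ∈ Subgroup.zpowers x, y ≠ 1 →
      Subgroup.centralizer ({y} : Set G) = Subgroup.zpowers x ⊔ Subgroup.center G := by
    intro y hy hy1
    rw [hcenter]
    have h5 := hzy y hy hy1
    have h6 : x ∈ Subgroup.zpowers y := by rw [h5]; exact Subgroup.mem_zpowers x
    obtain ⟨k, hk⟩ := Subgroup.mem_zpowers_iff.1 h6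
    obtain ⟨j, hj⟩ := Subgroup.mem_zpowers_iff.1 hy
    apply le_antisymm
    · intro g hg
      rw [Subgroup.mem_centralizer_singleton_iff] at hg
      apply hcentx
      rw [← hk]
      exact (Commute.zpow_right hg k)
    · apply sup_le
      · rw [Subgroup.zpowers_le, Subgroup.mem_centralizer_singleton_iff, ← hj]
        exact ((Commute.refl x).zpow_right j)
      · intro c hc
        rw [Subgroup.mem_centralizer_singleton_iff]
        exact hCcen c hc y
  have hcrit := Cfsg.Agent.Lib.Helper32.crit_commSub_bound ρ Q (fun h => hqp h.symm) hQ x hxP hgen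
    hC hinj hirrQ
  have hsq := Cfsg.Agent.Lib.Helper32.sq_finrank_le_mul_finrank_commSub 2 (ρ x - 1)
    (by rw [sq]; exact hquad)
  have hcs : Cfsg.Agent.Lib.Helper32.commSub (ρ x - 1) =
      Cfsg.Agent.Lib.Helper32.commSub (ρ x) := by
    ext φ
    rw [Cfsg.Agent.Lib.Helper32.mem_commSub, Cfsg.Agent.Lib.Helper32.mem_commSub, sub_mul,
      mul_sub, one_mul, mul_one]
    constructor
    · intro h
      exact sub_left_injective h
    · intro h
      rw [h]
  rw [hcs] at hsq
  rw [hcard] at hcrit
  have hp3 : 3 ≤ p := by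
    have := hpp.two_le
    omega
  generalize finrank F (Cfsg.Agent.Lib.Helper32.commSub (ρ x)) = c at hsq hcrit
  generalize finrank F V = d at hsq hcrit ⊢
  have hc2 : c ≤ 2 := by nlinarith
  have hd4 : d ^ 2 ≤ 4 := by omega
  nlinarith

end Cfsg.Agent.Lib.Helper70.HH89
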