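import Mathlib
import Cfsg.Agent.Lib.Helper70.HH.S3789Defs
import Cfsg.Agent.Lib.Helper63.PLength
import Cfsg.Agent.Lib.Helper63.HallHigman
import Cfsg.Agent.Lib.Helper69.PSolvable

/-!
# S3789: the induction on the derived length (helper70)
-/

set_option autoImplicit false

namespace Cfsg.Agent.Lib.Helper70.HH89

open Cfsg Cfsg.Agent.Lib.Helper63

universe u

theorem main_aux (hKey : LemKey.{u}) (p : ℕ) [Fact p.Prime] (hp2 : p ≠ 2) (d : ℕ) :
    ∀ (G : Type u) [Group G] [Finite G], Cfsg.IsPSolvable p G → ∀ P : Sylow p G,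
      derivedSeries ↥(P : Subgroup G) d = ⊥ → Cfsg.PLengthLE p d G := by
  induction d with
  | zero =>
    intro G _ _ hsol P hP
    rw [derivedSeries_zero] at hP
    have h1 : Subsingleton ↥(P : Subgroup G) := by
      refine ⟨fun a b => ?_⟩
      have ha : a ∈ (⊤ : Subgroup ↥(P : Subgroup G)) := Subgroup.mem_top a
      have hb : b ∈ (⊤ : Subgroup ↥(P : Subgroup G)) := Subgroup.mem_top b
      rw [hP, Subgroup.mem_bot] at ha hb
      rw [ha, hb]
    rw [plengthLE_zero_iff, Nat.coprime_comm, Nat.Prime.coprime_iff_not_dvd Fact.out]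
    intro hdvd
    exact Sylow.ne_bot_of_dvd_card P hdvd (Subgroup.eq_bot_of_subsingleton _)
  | succ d ih =>
    intro G _ _ hsol P hP
    set N := pPrimeCore p G with hN
    let π₁ := QuotientGroup.mk' N
    have hπ₁ : Function.Surjective π₁ := QuotientGroup.mk'_surjective N
    let S₁ : Sylow p (G ⧸ N) := P.mapSurjective hπ₁
    have hsol1 : Cfsg.IsPSolvable p (G ⧸ N) :=
      Cfsg.Agent.Lib.Helper69.isPSolvable_of_surj p π₁ hπ₁ hsol
    have h0 : pPrimeCore p (G ⧸ N) = ⊥ := pPrimeCore_quotient_eq_bot p G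
    have hS₁ : derivedSeries ↥(S₁ : Subgroup (G ⧸ N)) (d + 1) = ⊥ := by
      have h1 := map_derivedSeries_eq (f := π₁.subgroupMap (P : Subgroup G))
        (MonoidHom.subgroupMap_surjective _ _) (d + 1)
      rw [hP, Subgroup.map_bot] at h1
      exact h1.symm
    have hkey := hKey hp2 hsol1 h0 S₁ d hS₁
    set R := pCore p (G ⧸ N) with hR
    let π₂ := QuotientGroup.mk' R
    have hπ₂ : Function.Surjective π₂ := QuotientGroup.mk'_surjective R
    let S₂ : Sylow p ((G ⧸ N) ⧸ R) := S₁.mapSurjective hπ₂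
    have hsol2 : Cfsg.IsPSolvable p ((G ⧸ N) ⧸ R) :=
      Cfsg.Agent.Lib.Helper69.isPSolvable_of_surj p π₂ hπ₂ hsol1
    have hS₂' : derivedSeries ↥((S₁ : Subgroup (G ⧸ N)).map π₂) d = ⊥ := by
      have h1 := map_derivedSeries_eq (f := π₂.subgroupMap (S₁ : Subgroup (G ⧸ N)))
        (MonoidHom.subgroupMap_surjective _ _) d
      rw [← h1, eq_bot_iff]
      rintro y ⟨x, hx, rfl⟩
      rw [Subgroup.mem_bot]
      apply Subtype.ext
      show π₂ (x : G ⧸ N) = 1
      refine (QuotientGroup.eq_one_iff _).2 (hkey ?_)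
      exact Subgroup.mem_map_of_mem _ hx
    have hS₂ : derivedSeries ↥(S₂ : Subgroup ((G ⧸ N) ⧸ R)) d = ⊥ := hS₂'
    have h3 : PLengthLE p d ((G ⧸ N) ⧸ R) := ih _ hsol2 S₂ hS₂
    have h4 : PLengthLE p (1 + d) (G ⧸ N) :=
      plengthLE_of_normal R (plengthLE_one_of_isPGroup (pCore_isPGroup' p _)) h3
    have h5 : PLengthLE p (0 + (1 + d)) G :=
      plengthLE_of_normal N (plengthLE_zero_iff.2 (card_pPrimeCore_coprime' p G)) h4
    have e : 0 + (1 + d) = d + 1 := by ring
    rw [e] at h5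
    exact h5

theorem main (hKey : LemKey.{u}) : Main.{u} := by
  intro p _ G _ _ hp2 hsol d P hP
  exact main_aux hKey p hp2 d G hsol P hP

end Cfsg.Agent.Lib.Helper70.HH89
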