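import Mathlib
import Cfsg.Agent.Lib.Helper70.HH.S3789Defs
import Cfsg.Agent.Lib.Helper32.TBCore

/-!
# S3789: Theorem M from the packages (helper70)
-/

set_option autoImplicit false

namespace Cfsg.Agent.Lib.Helper70.HH89

open Module

universe u v w

theorem thmM (hCrit : LemCrit.{u}) (hW : LemW.{u, v, w}) (hD : LemD.{u, v, w})
    (hDim : LemDim.{u, v, w}) (hFin : LemFin.{u}) : ThmM.{u, v, w} := by
  intro p _ F _ _ _ H _ _ V _ _ _ ρ B hp2 hsol hOp hinj hB hQ1 hQ2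
  classical
  by_contra hA
  have hpp : p.Prime := Fact.out
  obtain ⟨q, Q, z, hq, hqp, hQ, hzA, hBQ, hmin, hfpf, ⟨g₀, hg₀Q, hg₀⟩, hcent, hAfrat, hgen⟩ :=
    hCrit hsol hOp B hB hA
  have : Fact q.Prime := ⟨hq⟩
  have hAB : ⁅B, B⁆ ≤ B := Subgroup.commutator_le.2
    (fun a ha b hb => B.mul_mem (B.mul_mem (B.mul_mem ha hb) (B.inv_mem ha)) (B.inv_mem hb))
  have hzB : z ∈ B := hAB hzA
  have hzQ : ∀ g ∈ Q, z * g * z⁻¹ ∈ Q := hBQ z hzB
  have hquad : (ρ z - 1) * (ρ z - 1) = 0 := hQ1 z hzA z hzA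
  have hzg₀ : z * g₀ ≠ g₀ * z := by
    intro h
    apply hg₀
    apply hfpf g₀ hg₀Q
    have h1 : z * g₀ * z⁻¹ * g₀⁻¹ = 1 := by
      rw [h]; group
    rw [h1]
    exact Subgroup.one_mem _
  have : Nontrivial V := by
    by_contra hV
    rw [not_nontrivial_iff_subsingleton] at hV
    apply hzg₀
    apply hinj
    exact Subsingleton.elim _ _
  -- `z ^ p = 1`
  have hzp : z ^ p = 1 := by
    apply hinj
    rw [map_pow, map_one]
    have : CharP (Module.End F V) p :=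
      charP_of_injective_algebraMap (algebraMap F (Module.End F V)).injective p
    have h1 : (ρ z - 1) ^ p = 0 := by
      have h2 : (ρ z - 1) ^ 2 = 0 := by rw [sq]; exact hquad
      have h3 : 2 ≤ p := hpp.two_le
      obtain ⟨k, rfl⟩ := Nat.exists_eq_add_of_le h3
      rw [pow_add, h2, zero_mul]
    have h4 : (ρ z - 1) ^ p = (ρ z) ^ p - 1 := by
      have := sub_pow_char_of_commute (Commute.one_right (ρ z)) (p := p)
      rw [this, one_pow]
    rw [h4] at h1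
    exact sub_eq_zero.1 h1
  -- Theorem B
  have hTB := Cfsg.Agent.Lib.Helper32.tb_flex.{u, v, w} F p q (fun h => hqp h.symm)
    (Nat.card Q + finrank F V) Q z ρ 1 2 hQ hzQ
    (by
      intro a _
      rw [pow_one, hzp, one_mul, mul_one])
    (by
      intro _
      refine ⟨g₀, hg₀Q, ?_⟩
      simp only [Nat.sub_self, pow_zero, pow_one]
      intro h
      exact hzg₀ (hinj h))
    (by rw [sq]; exact hquad) le_rfl
  have hnonab : ∃ a ∈ Q, ∃ b ∈ Q, ρ (a * b) ≠ ρ (b * a) := by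
    rcases hTB with h | ⟨n₀, m, _, _, _, _, h, _⟩
    · exfalso
      rw [pow_one] at h
      have h3 : 2 ≤ p := hpp.two_le
      omega
    · exact h
  obtain ⟨W, hW0, hWQ, hWB, hscal, hnc⟩ :=
    hW ρ B Q z hp2 hqp hB hQ hBQ (fun c hc => hAfrat z hzA c hc) hcent hgen
      (fun b hb => hQ2 z hzA b hb b hb) hnonab
  have hD' : ∀ g ∈ Q, (∀ h ∈ Q, ∀ w ∈ W, ρ (g * h) w = ρ (h * g) w) → g ∈ frat Q :=
    hD ρ B Q z W hBQ (fun Q₁ h1 h2 h3 g hg => hmin Q₁ h1 h2 h3 z hzA g hg) hfpf hWQ hWB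
      (hnc W hW0 le_rfl hWQ)
  have hcard : Nat.card Q ≤ 4 * Nat.card (frat Q) :=
    hDim ρ Q z W hp2 hqp hQ hzQ hzp (fun c hc => hAfrat z hzA c hc) hcent hfpf hgen hquad hW0 hWQ
      (hWB z hzB) hscal hnc hD'
  have hfin := hFin B Q hp2 hB hBQ hcard z hzA g₀ hg₀Q
  exact hg₀ (hfpf g₀ hg₀Q hfin)

end Cfsg.Agent.Lib.Helper70.HH89
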